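import Cfsg.Agent.Lib.AutCl.Galois

/-!
The Lang theorem for `GL` over an algebraically closed field.
-/

set_option autoImplicit false
open Polynomial

namespace H67.LangAC

universe u v
variable {K : Type u} [Field K] [IsAlgClosed K]

/-- coefficient polynomials -/
noncomputable def xp (q : ℕ) (a : ℕ → K) : ℕ → K[X]
  | 0 => C (a 0) * X ^ q
  | i + 1 => xp q a i ^ q + C (a (i + 1)) * X ^ q

omit [IsAlgClosed K] in
theorem xp_dvd {q : ℕ} (hq : 1 < q) (a : ℕ → K) (i : ℕ) : X ^ q ∣ xp q a i := by
  induction i with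
  | zero => exact Dvd.intro_left _ rfl
  | succ i ih =>
    exact dvd_add (ih.trans (dvd_pow_self _ (by omega))) (Dvd.intro_left _ rfl)

omit [IsAlgClosed K] in
theorem xp_eq_zero {q : ℕ} (hq : 1 < q) (a : ℕ → K) (i : ℕ) (h : xp q a i = 0) :
    ∀ j ≤ i, a j = 0 := by
  induction i with
  | zero =>
    intro j hj
    obtain rfl : j = 0 := by omega
    simpa [xp] using h
  | succ i ih =>
    have h0 : xp q a i = 0 := by
      by_contra hne
      have h1 : q ≤ (xp q a i).natDegree := by
        simpa using natDegree_le_of_dvd (xp_dvd hq a i) hne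
      have h2 : xp q a i ^ q = -(C (a (i + 1)) * X ^ q) := eq_neg_of_add_eq_zero_left h
      have h3 := congrArg natDegree h2
      rw [natDegree_pow, natDegree_neg] at h3
      have h4 : (C (a (i + 1)) * X ^ q : K[X]).natDegree ≤ q := natDegree_C_mul_X_pow_le _ _
      nlinarith
    intro j hj
    rcases Nat.lt_or_ge j (i + 1) with hj' | hj'
    · exact ih h0 j (by omega)
    · obtain rfl : j = i + 1 := by omega
      have : xp q a (i + 1) = xp q a i ^ q + C (a (i + 1)) * X ^ q := rfl
      rw [h0, zero_pow (by omega), zero_add, h] at this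
      simpa using this.symm

theorem exists_root {q : ℕ} (hq : 1 < q) {P : K[X]} (hP : P ≠ 0) (hd : X ^ q ∣ P) :
    ∃ t : K, t ≠ 0 ∧ P.eval t = t := by
  obtain ⟨R, rfl⟩ := hd
  obtain ⟨k, rfl⟩ : ∃ k, q = k + 2 := ⟨q - 2, by omega⟩
  have hR : R ≠ 0 := by rintro rfl; simp at hP
  have hdeg : (X ^ (k + 1) * R - 1 : K[X]).degree ≠ 0 := by
    have h1 : 0 < (X ^ (k + 1) * R : K[X]).natDegree := by
      rw [natDegree_mul (by simp) hR]; simp
    have h2 : (X ^ (k + 1) * R - 1 : K[X]).natDegree = (X ^ (k + 1) * R : K[X]).natDegree := by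
      rw [← C_1, natDegree_sub_C]
    intro h
    have := natDegree_eq_zero_iff_degree_le_zero.2 h.le
    omega
  obtain ⟨t, ht⟩ := IsAlgClosed.exists_root _ hdeg
  have ht' : t ^ (k + 1) * R.eval t = 1 := by
    simpa [IsRoot, sub_eq_zero] using ht
  refine ⟨t, ?_, ?_⟩
  · rintro rfl; simp at ht'
  · simp only [eval_mul, eval_pow, eval_X]
    rw [pow_succ', mul_assoc, ht', mul_one]

variable {σ : K →+* K} {q : ℕ}

theorem exists_fixed (hq : 1 < q) (hσ : ∀ x, σ x = x ^ q) {V : Type v} [AddCommGroup V]
    [Module K V] [FiniteDimensional K V] (φ : V →ₛₗ[σ] V) (hφ : Function.Injective φ)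
    {v : V} (hv : v ≠ 0) : ∃ w : V, w ≠ 0 ∧ φ w = w := by
  classical
  let e : ℕ → V := fun i => φ^[i] v
  have hex : ∃ m, e m ∈ Submodule.span K (e '' Set.Iio m) := by
    let S : ℕ →o Submodule K V := ⟨fun m => Submodule.span K (e '' Set.Iio m), fun a b hab =>
      Submodule.span_mono (Set.image_mono (Set.Iio_subset_Iio hab))⟩
    obtain ⟨n, hn⟩ := monotone_stabilizes_iff_noetherian.2 inferInstance S
    refine ⟨n, ?_⟩
    have h1 : S n = S (n + 1) := hn _ (by omega)
    change e n ∈ S n
    rw [h1]
    exact Submodule.subset_span ⟨n, by simp, rfl⟩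
  let m := Nat.find hex
  have hm : e m ∈ Submodule.span K (e '' Set.Iio m) := Nat.find_spec hex
  have hmin : ∀ k < m, e k ∉ Submodule.span K (e '' Set.Iio k) := fun k hk => Nat.find_min hex hk
  have hm0 : m ≠ 0 := by
    intro h
    rw [h] at hm
    simp [e, hv] at hm
  obtain ⟨k, hk⟩ : ∃ k, m = k + 1 := ⟨m - 1, by omega⟩
  rw [hk] at hm
  have hI : Set.Iio (k + 1) = ((Finset.range (k + 1) : Finset ℕ) : Set ℕ) := by ext; simp
  rw [hI, Submodule.mem_span_image_finset_iff_exists_fun'] at hm
  obtain ⟨a, ha⟩ := hm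
  have he : ∀ i, φ (e i) = e (i + 1) := fun i => (Function.iterate_succ_apply' φ i v).symm
  have hene : ∀ i, e i ≠ 0 := by
    intro i
    induction i with
    | zero => exact hv
    | succ i ih => rw [← he]; intro h; exact ih (hφ (by rw [h, map_zero]))
  have hP : xp q a k ≠ 0 := by
    intro h
    have h0 := xp_eq_zero hq a k h
    apply hene (k + 1)
    rw [← ha]
    exact Finset.sum_eq_zero fun i hi => by
      rw [h0 i (by simpa [Nat.lt_succ_iff] using hi), zero_smul]
  obtain ⟨t, ht0, ht⟩ := exists_root hq hP (xp_dvd hq a k)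
  refine ⟨∑ i ∈ Finset.range (k + 1), (xp q a i).eval t • e i, ?_, ?_⟩
  · intro h
    rw [Finset.sum_range_succ, ht] at h
    apply hmin k (by omega)
    have : e k = -(t⁻¹ • ∑ i ∈ Finset.range k, (xp q a i).eval t • e i) := by
      rw [eq_neg_of_add_eq_zero_left h]; simp [smul_smul, ht0]
    rw [this]
    refine neg_mem (Submodule.smul_mem _ _ (Submodule.sum_mem _ fun i hi => ?_))
    exact Submodule.smul_mem _ _ (Submodule.subset_span ⟨i, by simpa using hi, rfl⟩)
  · rw [map_sum]
    simp only [LinearMap.map_smulₛₗ, he, hσ]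
    rw [Finset.sum_range_succ, ht, ← ha, Finset.smul_sum, Finset.sum_range_succ',
      Finset.sum_range_succ' (fun i => (xp q a i).eval t • e i), ← add_assoc,
      ← Finset.sum_add_distrib]
    congr 1
    · refine Finset.sum_congr rfl fun i _ => ?_
      simp only [xp, eval_add, eval_pow, eval_mul, eval_C, eval_X, smul_smul, add_smul]
      rw [mul_comm]
    · simp only [xp, eval_pow, eval_mul, eval_C, eval_X, smul_smul]
      rw [mul_comm]

theorem span_fixed (hq : 1 < q) (hσ : ∀ x, σ x = x ^ q) (n : ℕ) : ∀ {V : Type v} [AddCommGroup V]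
    [Module K V] [FiniteDimensional K V] (φ : V →ₛₗ[σ] V), Function.Injective φ →
    Module.finrank K V = n → Submodule.span K {w | φ w = w} = ⊤ := by
  induction n with
  | zero =>
    intro V _ _ _ φ _ hn
    have := Module.finrank_zero_iff.1 hn
    exact Subsingleton.elim _ _
  | succ n ih =>
    intro V _ _ _ φ hφ hn
    have : Nontrivial V := Module.nontrivial_of_finrank_eq_succ hn
    obtain ⟨v, hv⟩ := exists_ne (0 : V)
    obtain ⟨w, hw0, hw⟩ := exists_fixed hq hσ φ hφ hv
    let L : Submodule K V := K ∙ w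
    have hL : L ≤ L.comap φ := by
      intro x hx
      obtain ⟨c, rfl⟩ := Submodule.mem_span_singleton.1 hx
      simp only [Submodule.mem_comap, LinearMap.map_smulₛₗ, hw]
      exact Submodule.smul_mem _ _ (Submodule.mem_span_singleton_self w)
    let ψ := L.mapQ L φ hL
    have hψ : Function.Injective ψ := by
      rw [injective_iff_map_eq_zero]
      intro x hx
      obtain ⟨u, rfl⟩ := L.mkQ_surjective x
      have h1 : φ u ∈ L := by simpa [ψ] using hx
      obtain ⟨c, hc⟩ := Submodule.mem_span_singleton.1 h1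
      obtain ⟨d, rfl⟩ := IsAlgClosed.exists_pow_nat_eq c (n := q) (by omega)
      have : u = d • w := hφ (by rw [LinearMap.map_smulₛₗ, hw, hσ, hc])
      rw [this, Submodule.mkQ_apply, Submodule.Quotient.mk_eq_zero]
      exact L.smul_mem _ (Submodule.mem_span_singleton_self w)
    have hr : Module.finrank K (V ⧸ L) = n := by
      have := L.finrank_quotient_add_finrank
      rw [finrank_span_singleton hw0] at this
      omega
    have h1 := ih ψ hψ hr
    have h2 : Submodule.span K {x | ψ x = x} ≤ (Submodule.span K {w | φ w = w}).map L.mkQ := by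
      rw [Submodule.span_le]
      intro x hx
      obtain ⟨u, rfl⟩ := L.mkQ_surjective x
      have h3 : φ u - u ∈ L := by
        rw [← Submodule.Quotient.eq]; simpa [ψ] using hx
      obtain ⟨c, hc⟩ := Submodule.mem_span_singleton.1 h3
      have hdeg : (X ^ q - X + C c : K[X]).degree ≠ 0 := by
        have : (X ^ q - X + C c : K[X]).natDegree = q := by
          rw [natDegree_add_C, natDegree_sub_eq_left_of_natDegree_lt] <;> simp [hq]
        intro h
        have := natDegree_eq_zero_iff_degree_le_zero.2 h.le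
        omega
      obtain ⟨d, hd⟩ := IsAlgClosed.exists_root _ hdeg
      have hd' : d ^ q - d + c = 0 := by simpa [IsRoot] using hd
      refine ⟨u + d • w, Submodule.subset_span ?_, ?_⟩
      · change φ (u + d • w) = u + d • w
        rw [map_add, LinearMap.map_smulₛₗ, hw, hσ, ← sub_add_cancel (φ u) u, ← hc,
          show d ^ q = d - c by linear_combination hd', sub_smul]
        abel
      · have : L.mkQ (d • w) = 0 := by
          rw [Submodule.mkQ_apply, Submodule.Quotient.mk_eq_zero]
          exact L.smul_mem _ (Submodule.mem_span_singleton_self w)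
        rw [map_add, this, add_zero]
    rw [h1, top_le_iff, Submodule.map_mkQ_eq_top] at h2
    rw [← h2, eq_comm, sup_eq_right, Submodule.span_singleton_le_iff_mem]
    exact Submodule.subset_span hw

open Matrix in
theorem lang_GL (hq : 1 < q) (hσ : ∀ x, σ x = x ^ q) {ι : Type*} [Fintype ι] [DecidableEq ι]
    (g : GL ι K) : ∃ x : GL ι K, g = x * (Matrix.GeneralLinearGroup.map σ x)⁻¹ := by
  let φ : (ι → K) →ₛₗ[σ] (ι → K) :=
    { toFun := fun v => (g : Matrix ι ι K) *ᵥ fun i => σ (v i)
      map_add' := fun u v => by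
        rw [← mulVec_add]; congr 1; ext i; simp
      map_smul' := fun c v => by
        rw [← mulVec_smul]; congr 1; ext i; simp }
  have hφ : Function.Injective φ := by
    intro u v h
    have h1 := (mulVec_injective_iff_isUnit.2 (Units.isUnit g)) h
    ext i
    exact σ.injective (congrFun h1 i)
  obtain ⟨h, hh⟩ := exists_GL_cols (span_fixed hq hσ _ φ hφ rfl)
  refine ⟨h, ?_⟩
  rw [eq_mul_inv_iff_mul_eq]
  ext i j
  have := congrFun (hh j) i
  simpa [φ, mulVec, dotProduct, mul_apply] using this

end H67.LangAC
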