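import Cfsg.Agent.Lib.AutCl.BalOG
import Cfsg.Agent.Lib.AutCl30.FormSim

/-!
Centralisers in conformal orthogonal groups in odd characteristic: multipliers and spinor norms.
-/

set_option autoImplicit false
set_option linter.unusedSectionVars false

namespace H67

open Subgroup Cfsg Matrix Module QuadraticMap Polynomial

section Ring

theorem exists_sq_sub {K : Type*} [Field K] [Finite K] (h2 : (2 : K) ≠ 0) {d : K} (hd : d ≠ 0)
    (y : K) : ∃ s t : K, s ^ 2 - d * t ^ 2 = y := by
  have := Fintype.ofFinite K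
  have hc : ringChar K ≠ 2 := fun h => h2 (by simpa using (ringChar.spec K 2).2 (h ▸ dvd_rfl))
  obtain ⟨s, t, h⟩ := FiniteField.exists_root_sum_quadratic (f := X ^ 2 - C y) (g := C (-d) * X ^ 2)
    (degree_X_pow_sub_C two_pos y) (degree_C_mul_X_pow 2 (neg_ne_zero.2 hd))
    (FiniteField.odd_card_of_char_ne_two hc)
  exact ⟨s, t, by simp at h; linear_combination h⟩

theorem exists_not_isSquare_one_sub {K : Type*} [Field K] [Finite K] (h2 : (2 : K) ≠ 0) {d u z : K}
    (hd : d ≠ 0) (hz : z ≠ 0) (h : u ^ 2 - d = z ^ 2) : ∃ t, ¬ IsSquare (1 - d * t ^ 2) := by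
  by_cases hs : IsSquare (-d)
  · obtain ⟨y, hy⟩ := exists_nonsq h2
    obtain ⟨s, t, hst⟩ := exists_sq_sub h2 hd (y : K)
    have hs0 : s ≠ 0 := by
      rintro rfl
      exact hy (by rw [← hst]; simpa [pow_two] using hs.mul (IsSquare.mul_self t))
    refine ⟨t / s, fun h1 => hy ?_⟩
    rw [show (y : K) = (1 - d * (t / s) ^ 2) * (s * s) by field_simp; linear_combination -hst]
    exact h1.mul (IsSquare.mul_self s)
  · refine ⟨u / d, fun h1 => hs (isSquare_of_mul_sq hz ?_)⟩
    rw [show -d * (z * z) = (1 - d * (u / d) ^ 2) * (d * d) by field_simp; linear_combination h]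
    exact h1.mul (IsSquare.mul_self d)

theorem not_isSquare_norm {F K : Type*} [Field F] [Field K] [Algebra F K] [Finite K]
    (h2 : (2 : F) ≠ 0) {y : K} (hy : ¬ IsSquare y) : ¬ IsSquare (Algebra.norm F y) := by
  have : Finite F := Finite.of_injective _ (algebraMap F K).injective
  intro h
  obtain ⟨c, hc⟩ := exists_nonsq h2
  obtain ⟨x, hx⟩ := FiniteField.norm_surjective F K (c : F)
  by_cases hs : IsSquare x
  · exact hc (hx ▸ hs.map _)
  · have h1 := (isSquare_mul_of_not hs hy).map (Algebra.norm F)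
    obtain ⟨a, ha⟩ := h
    rw [map_mul, hx, ha] at h1
    refine hc (isSquare_of_mul_sq ?_ h1)
    rintro rfl
    rw [mul_zero, Algebra.norm_eq_zero_iff] at ha
    exact hy (ha ▸ IsSquare.zero)

theorem exists_norm_eq {R : Type*} [CommRing R] [Finite R] [IsReduced R] (h2 : IsUnit (2 : R))
    (d μ : R) : ∃ s t u : R, d * u * d = d ∧ s * (d * u) = s ∧ t * (d * u) = t ∧
      s ^ 2 - d * t ^ 2 = μ * (d * u) := by
  let e := IsArtinianRing.equivPi R
  have : ∀ I : MaximalSpectrum R, ∃ s t u : R ⧸ I.asIdeal, e d I * u * e d I = e d I ∧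
      s * (e d I * u) = s ∧ t * (e d I * u) = t ∧
      s ^ 2 - e d I * t ^ 2 = e μ I * (e d I * u) := fun I => by
    have := I.isMaximal
    let _ := Ideal.Quotient.field I.asIdeal
    have : Finite (R ⧸ I.asIdeal) := Finite.of_surjective _ Ideal.Quotient.mk_surjective
    by_cases hd : e d I = 0
    · exact ⟨0, 0, 0, by simp [hd]⟩
    have h3 : (2 : R ⧸ I.asIdeal) ≠ 0 := by
      simpa [map_ofNat] using (h2.map (Ideal.Quotient.mk I.asIdeal)).ne_zero
    obtain ⟨s, t, h⟩ := exists_sq_sub h3 hd (e μ I)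
    exact ⟨s, t, (e d I)⁻¹, by simp [hd, h]⟩
  choose s t u h using this
  refine ⟨e.symm s, e.symm t, e.symm u, ?_, ?_, ?_, ?_⟩ <;> refine e.injective (funext fun I => ?_) <;>
    simp only [map_mul, map_sub, map_pow, AlgEquiv.apply_symm_apply, Pi.mul_apply, Pi.sub_apply,
      Pi.pow_apply, h I]

variable {F V : Type*} [Field F] [Finite F] [AddCommGroup V] [Module F V] [FiniteDimensional F V]

theorem exists_poly_norm (h2 : (2 : F) ≠ 0) {θ : End F V} (hθ : θ.IsSemisimple) (D M : F[X]) :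
    ∃ S T U : F[X], aeval θ (D * U * D) = aeval θ D ∧ aeval θ (S * (D * U)) = aeval θ S ∧
      aeval θ (T * (D * U)) = aeval θ T ∧ aeval θ (S ^ 2 - D * T ^ 2) = aeval θ (M * (D * U)) := by
  have hm := minpoly.monic (Algebra.IsIntegral.isIntegral (R := F) θ)
  have : Module.Finite F (AdjoinRoot (minpoly F θ)) := hm.finite_adjoinRoot
  have : Finite (AdjoinRoot (minpoly F θ)) := Module.finite_of_finite F
  have : IsReduced (AdjoinRoot (minpoly F θ)) :=
    (Ideal.isRadical_iff_quotient_reduced _).1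
      (isRadical_iff_span_singleton.1 hθ.minpoly_squarefree.isRadical)
  obtain ⟨s, t, u, h⟩ := exists_norm_eq (R := AdjoinRoot (minpoly F θ))
    (by simpa [map_ofNat] using (IsUnit.mk0 _ h2).map (algebraMap F (AdjoinRoot (minpoly F θ))))
    (AdjoinRoot.mk _ D) (AdjoinRoot.mk _ M)
  obtain ⟨S, rfl⟩ := AdjoinRoot.mk_surjective s
  obtain ⟨T, rfl⟩ := AdjoinRoot.mk_surjective t
  obtain ⟨U, rfl⟩ := AdjoinRoot.mk_surjective u
  have key : ∀ p q : F[X], AdjoinRoot.mk (minpoly F θ) p = AdjoinRoot.mk _ q →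
      aeval θ p = aeval θ q := fun p q h => by
    rw [AdjoinRoot.mk_eq_mk, minpoly.dvd_iff, map_sub, sub_eq_zero] at h
    exact h
  refine ⟨S, T, U, key _ _ ?_, key _ _ ?_, key _ _ ?_, key _ _ ?_⟩ <;>
    simp only [map_mul, map_sub, map_pow, h]

end Ring

section Two

variable {F V : Type*} [Field F] [AddCommGroup V] [Module F V] {Q : QuadraticForm F V}

theorem polar_aeval {θ : End F V} (hθ : ∀ u v, polar Q (θ u) v = polar Q u (θ v)) (p : F[X])
    (u v : V) : polar Q (aeval θ p u) v = polar Q u (aeval θ p v) := by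
  induction p using Polynomial.induction_on generalizing u v with
  | C a => simp [Module.algebraMap_end_apply]
  | add p q hp hq => simp [hp, hq]
  | monomial n a h =>
    have h1 : ∀ v, aeval θ (C a * X ^ (n + 1)) v = θ (aeval θ (C a * X ^ n) v) := fun v => by
      rw [pow_succ', mul_left_comm, map_mul, aeval_X]; rfl
    have h2 : ∀ v, aeval θ (C a * X ^ (n + 1)) v = aeval θ (C a * X ^ n) (θ v) := fun v => by
      rw [pow_succ, ← mul_assoc, map_mul, aeval_X]; rfl
    rw [h1, hθ, h, h2]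

theorem commute_aeval {θ δ : End F V} (h : Commute δ θ) (p : F[X]) : Commute δ (aeval θ p) := by
  induction p using Polynomial.induction_on with
  | C a => rw [aeval_C]; exact (Algebra.commutes a δ).symm
  | add p q hp hq => simpa using hp.add_right hq
  | monomial n a h' => rw [pow_succ, ← mul_assoc, map_mul, aeval_X]; exact h'.mul_right h

theorem det_one_add_comp {W : Type*} [AddCommGroup W] [Module F W] [FiniteDimensional F V]
    [FiniteDimensional F W] (A : W →ₗ[F] V) (B : V →ₗ[F] W) :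
    LinearMap.det (1 + A ∘ₗ B) = LinearMap.det (1 + B ∘ₗ A) := by
  let b := Module.finBasis F V
  let c := Module.finBasis F W
  rw [← LinearMap.det_toMatrix b, ← LinearMap.det_toMatrix c, map_add, map_add,
    LinearMap.toMatrix_comp b c b, LinearMap.toMatrix_comp c b c, LinearMap.toMatrix_one,
    LinearMap.toMatrix_one, det_one_add_mul_comm]

variable (θ : End F V) {f : F[X]} (hf : f.Monic)

/-- the orbit map of a vector killed by `f(θ)` -/
noncomputable def pw (w : V) : AdjoinRoot f →ₗ[F] V :=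
  (LinearMap.applyₗ w ∘ₗ (aeval θ).toLinearMap) ∘ₗ AdjoinRoot.modByMonicHom hf

variable {θ}

theorem pw_mk {w : V} (hw : aeval θ f w = 0) (p : F[X]) :
    pw θ hf w (AdjoinRoot.mk f p) = aeval θ p w := by
  simp only [pw, LinearMap.comp_apply, AdjoinRoot.modByMonicHom_mk, AlgHom.toLinearMap_apply,
    LinearMap.applyₗ_apply_apply]
  conv_rhs => rw [← modByMonic_add_div p f, mul_comm, map_add, map_mul]
  simp [hw]

theorem pw_comm {δ : End F V} (h : Commute δ θ) (w : V) (x : AdjoinRoot f) :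
    pw θ hf (δ w) x = δ (pw θ hf w x) :=
  (LinearMap.congr_fun (commute_aeval h _).eq w).symm

theorem pw_mul {w : V} (hw : aeval θ f w = 0) (p : F[X]) (x : AdjoinRoot f) :
    pw θ hf w (AdjoinRoot.mk f p * x) = aeval θ p (pw θ hf w x) := by
  obtain ⟨q, rfl⟩ := AdjoinRoot.mk_surjective x
  rw [← map_mul, pw_mk hf hw, pw_mk hf hw, map_mul]; rfl

variable [Finite F] [Fact (Irreducible f)]

include hf in
theorem trace_nondeg : (Algebra.traceForm F (AdjoinRoot f)).Nondegenerate := by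
  have := hf.finite_adjoinRoot
  exact traceForm_nondegenerate F _

include hf in
theorem eq_of_trace {a b : AdjoinRoot f}
    (h : ∀ x, Algebra.trace F _ (a * x) = Algebra.trace F _ (b * x)) : a = b :=
  sub_eq_zero.1 ((trace_nondeg hf).1 _ fun x => by
    rw [Algebra.traceForm_apply, sub_mul, map_sub, h, sub_self])

variable (Q θ) in
/-- the form over the extension field, against a fixed vector -/
noncomputable def al (w : V) : V →ₗ[F] AdjoinRoot f :=
  have := hf.finite_adjoinRoot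
  ((Algebra.traceForm F _).toDual (trace_nondeg hf)).symm.toLinearMap ∘ₗ
    (polarBilin Q).compl₂ (pw θ hf w)

theorem trace_al (w v : V) (x : AdjoinRoot f) :
    Algebra.trace F _ (al Q θ hf w v * x) = polar Q v (pw θ hf w x) := by
  have := hf.finite_adjoinRoot
  rw [← Algebra.traceForm_apply]
  exact LinearMap.BilinForm.apply_toDual_symm_apply (hB := trace_nondeg hf) _ _

variable (hθ : ∀ u v, polar Q (θ u) v = polar Q u (θ v))
include hθ

theorem al_aeval {w : V} (hw : aeval θ f w = 0) (p : F[X]) (v : V) :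
    al Q θ hf w (aeval θ p v) = AdjoinRoot.mk f p * al Q θ hf w v :=
  eq_of_trace hf fun x => by
    rw [trace_al, polar_aeval hθ, ← pw_mul hf hw, ← trace_al, mul_left_comm, mul_assoc]

theorem al_pw {u w : V} (hu : aeval θ f u = 0) (hw : aeval θ f w = 0) (x : AdjoinRoot f) :
    al Q θ hf u (pw θ hf w x) = x * al Q θ hf u w := by
  obtain ⟨q, rfl⟩ := AdjoinRoot.mk_surjective x
  rw [pw_mk hf hw, al_aeval hf hθ hu]

theorem al_comm {u w : V} (hu : aeval θ f u = 0) (hw : aeval θ f w = 0) :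
    al Q θ hf u w = al Q θ hf w u :=
  eq_of_trace hf fun x => by
    obtain ⟨q, rfl⟩ := AdjoinRoot.mk_surjective x
    rw [trace_al, trace_al, pw_mk hf hw, pw_mk hf hu, polar_comm, polar_aeval hθ]

omit hθ in
theorem al_self_ne (h2 : (2 : F) ≠ 0) {w : V} (hw : aeval θ f w = 0) (h : Q w ≠ 0) :
    al Q θ hf w w ≠ 0 := fun h0 => by
  have := trace_al (Q := Q) (θ := θ) hf w w (AdjoinRoot.mk f 1)
  rw [h0, pw_mk hf hw] at this
  simp [h, h2] at this

variable (Q θ) in
omit hθ in
/-- a skew map of rank two over the extension field -/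
noncomputable def skw (u w : V) (t : AdjoinRoot f) : End F V :=
  pw θ hf w ∘ₗ LinearMap.mulLeft F t ∘ₗ al Q θ hf u - pw θ hf u ∘ₗ LinearMap.mulLeft F t ∘ₗ al Q θ hf w

omit hθ in
theorem skw_apply (u w : V) (t : AdjoinRoot f) (v : V) : skw Q θ hf u w t v =
    pw θ hf w (t * al Q θ hf u v) - pw θ hf u (t * al Q θ hf w v) := rfl

omit hθ in
theorem skw_skew (u w : V) (t : AdjoinRoot f) (x y : V) :
    polar Q (skw Q θ hf u w t x) y = -polar Q x (skw Q θ hf u w t y) := by
  rw [polar_comm, skw_apply, skw_apply, polar_sub_right, polar_sub_right, ← trace_al, ← trace_al,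
    ← trace_al, ← trace_al, neg_sub]
  congr 2 <;> ring

theorem skw_comm {u w : V} (hu : aeval θ f u = 0) (hw : aeval θ f w = 0) (t : AdjoinRoot f) :
    Commute θ (skw Q θ hf u w t) := by
  refine LinearMap.ext fun v => ?_
  have h1 : ∀ v, θ v = aeval θ (X : F[X]) v := fun v => by rw [aeval_X]
  rw [Module.End.mul_apply, Module.End.mul_apply, skw_apply, skw_apply, h1, h1 v, map_sub,
    ← pw_mul hf hw, ← pw_mul hf hu, al_aeval hf hθ hu, al_aeval hf hθ hw, mul_left_comm,
    mul_left_comm _ t]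

theorem det_skw [FiniteDimensional F V] {u w : V} (hu : aeval θ f u = 0) (hw : aeval θ f w = 0)
    (h : al Q θ hf u w = 0) (t : AdjoinRoot f) : LinearMap.det (1 + skw Q θ hf u w t) =
      Algebra.norm F (1 + t ^ 2 * (al Q θ hf u u * al Q θ hf w w)) := by
  have := hf.finite_adjoinRoot
  have h' : al Q θ hf w u = 0 := by rw [al_comm hf hθ hw hu, h]
  let y : End F V := pw θ hf u ∘ₗ LinearMap.mulLeft F t ∘ₗ al Q θ hf w
  have h1 : LinearMap.det (1 + y) = 1 := by
    rw [det_one_add_comp, show (LinearMap.mulLeft F t ∘ₗ al Q θ hf w) ∘ₗ pw θ hf u = 0 from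
      LinearMap.ext fun x => by simp [al_pw hf hθ hw hu, h'], add_zero, map_one]
  have h2 : (1 + y) * (1 + skw Q θ hf u w t) =
      1 + ((1 + y) ∘ₗ pw θ hf w ∘ₗ LinearMap.mulLeft F t) ∘ₗ al Q θ hf u :=
    LinearMap.ext fun v => by
      simp [y, skw_apply, al_pw hf hθ hw hu, h', mul_add]
      abel
  rw [← one_mul (LinearMap.det _), ← h1, ← map_mul, h2, det_one_add_comp, Algebra.norm_apply]
  congr 1
  refine LinearMap.ext fun x => ?_
  simp [y, al_pw hf hθ hu hw, al_pw hf hθ hu hu, al_pw hf hθ hw hw, h]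
  ring

end Two

section Cayley

variable {ι : Type} [Fintype ι] [DecidableEq ι] {F : Type*} [Field F] {Q : QuadraticForm F (ι → F)}

theorem polar_of_sim {V : Type*} [AddCommGroup V] [Module F V] {Q : QuadraticForm F V}
    {h : End F V} {c : F} (hc : ∀ v, Q (h v) = c * Q v) (u v : V) :
    polar Q (h u) (h v) = c * polar Q u v :=
  polar_sim (e := RingHom.id F) (map_add h) hc u v

theorem exists_GL_of_sim (hQ : H12.Nondeg Q) {h : End F (ι → F)} {c : F} (hc0 : c ≠ 0)
    (hc : ∀ v, Q (h v) = c * Q v) : ∃ g : GL ι F, ∀ v, g.val *ᵥ v = h v := by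
  have h1 : IsUnit h := (LinearMap.isUnit_iff_ker_eq_bot _).2 (LinearMap.ker_eq_bot'.2 fun v hv =>
    hQ v fun w => by simpa [hv, hc0] using polar_of_sim hc v w)
  refine ⟨(h1.map LinearMap.toMatrixAlgEquiv').unit, fun v => ?_⟩
  simp [← toLin'_apply, LinearMap.toMatrixAlgEquiv']

theorem det_of_mulVec {g : Matrix ι ι F} {h : End F (ι → F)} (hg : ∀ v, g *ᵥ v = h v) :
    g.det = LinearMap.det h := by
  rw [← LinearMap.det_toLin', show toLin' g = h from LinearMap.ext hg]

theorem det_one_sub_skew (hQ : H12.Nondeg Q) {s : End F (ι → F)}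
    (hs : ∀ u v, polar Q (s u) v = -polar Q u (s v)) :
    LinearMap.det (1 - s) = LinearMap.det (1 + s) := by
  let S := LinearMap.toMatrix' s
  have hS : ∀ v, S *ᵥ v = s v := LinearMap.toMatrix'_mulVec s
  have h1 : (1 - S)ᵀ * gram Q * 1 = 1ᵀ * gram Q * (1 + S) := by
    ext i j
    rw [gram_congr, gram_congr, sub_mulVec, add_mulVec, hS, hS]
    simp only [one_mulVec, polar_sub_left, polar_add_right, hs, sub_neg_eq_add]
  have h2 := congrArg det h1
  simp only [det_mul, det_transpose, det_one, mul_one, one_mul] at h2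
  rw [mul_comm, mul_right_inj' (det_gram_ne hQ)] at h2
  rw [← det_of_mulVec (g := 1 - S) (fun v => by simp [sub_mulVec, hS]), h2,
    det_of_mulVec (h := 1 + s) (fun v => by simp [add_mulVec, hS])]

variable [Finite F]

/-- the Cayley transform of a skew map -/
theorem exists_cayley (hQ : H12.Nondeg Q) (h2 : (2 : F) ≠ 0) (he : Even (Fintype.card ι))
    (hn : GeneralLinearGroup.scalar ι (-1 : Fˣ) ∈ Geo.omegaGL Q) {s : End F (ι → F)}
    (hs : ∀ u v, polar Q (s u) v = -polar Q u (s v)) (hd : ¬ IsSquare (LinearMap.det (1 + s))) :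
    ∃ c ∈ specialIsometryGL F Q, c ∉ Geo.omegaGL Q ∧
      ∀ a : End F (ι → F), Commute a s → ∀ v, c.val *ᵥ a v = a (c.val *ᵥ v) := by
  have hd0 : LinearMap.det (1 + s) ≠ 0 := fun h => hd (h ▸ IsSquare.zero)
  obtain ⟨x, hx⟩ := (LinearMap.isUnit_iff_isUnit_det _).2 (IsUnit.mk0 _ hd0)
  have h0 : ∀ u, polar Q u (s u) = 0 := fun u => by
    have := hs u u
    rw [polar_comm] at this
    exact (mul_eq_zero.1 (by linear_combination this : 2 * polar Q u (s u) = 0)).resolve_left h2
  have hiso : ∀ v, Q ((-(1 - s) * x⁻¹.val) v) = 1 * Q v := fun v => by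
    obtain ⟨u, rfl⟩ : ∃ u, v = x.val u := ⟨x⁻¹.val v, by rw [← Module.End.mul_apply]; simp⟩
    rw [← Module.End.mul_apply, Units.inv_mul_cancel_right, hx]
    simp [H12.Q_sub, H12.Q_add, polar_comm Q (s u), h0, add_comm]
  obtain ⟨c, hc⟩ := exists_GL_of_sim hQ one_ne_zero hiso
  have hc1 : c ∈ isometryGroup F Q := H12.mem_isometryGroup.2 fun v => by rw [hc, hiso, one_mul]
  have hxd : LinearMap.det x⁻¹.val = (LinearMap.det (1 + s))⁻¹ :=
    eq_inv_of_mul_eq_one_right (by rw [← hx, ← map_mul]; simp)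
  have h3 : (1 - c.val).det = 2 ^ Fintype.card ι * (LinearMap.det (1 + s))⁻¹ := by
    rw [det_of_mulVec (h := (2 : F) • x⁻¹.val), LinearMap.det_smul, hxd,
      Module.finrank_fintype_fun_eq_card]
    intro v
    have : (1 : End F (ι → F)) - -(1 - s) * x⁻¹.val = (2 : F) • x⁻¹.val := by
      have h4 : (1 + s) * x⁻¹.val = 1 := by rw [← hx, x.mul_inv]
      rw [two_smul]
      exact (fun {R : Type _} [Ring R] (s y : R) (h : (1 + s) * y = 1) =>
        (by linear_combination (norm := noncomm_ring) -h : 1 - -(1 - s) * y = y + y)) _ _ h4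
    rw [← this, sub_mulVec, hc, one_mulVec]; rfl
  refine ⟨c, mem_so_iff.2 ⟨hc1, ?_⟩, fun h => hd ?_, fun a ha v => ?_⟩
  · rw [det_of_mulVec hc, map_mul, hxd, ← neg_one_smul F, LinearMap.det_smul,
      det_one_sub_skew hQ hs, Module.finrank_fintype_fun_eq_card, he.neg_one_pow, one_mul,
      mul_inv_cancel₀ hd0]
  · rw [mem_omega_iff_det hQ (H12.good_of_two_ne_zero hQ h2) hc1
      (by rw [h3]; exact mul_ne_zero (pow_ne_zero _ h2) (inv_ne_zero hd0)), h3] at h
    obtain ⟨a, ha⟩ := isSquare_gram_of_neg hQ h2 he hn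
    obtain ⟨k, hk⟩ := he
    have ha0 : a ≠ 0 := by rintro rfl; exact det_gram_ne hQ (by simpa using ha)
    rw [← isSquare_inv]
    refine isSquare_of_mul_sq (mul_ne_zero ha0 (pow_ne_zero k h2)) ?_
    rw [show (LinearMap.det (1 + s))⁻¹ * (a * 2 ^ k * (a * 2 ^ k)) =
      (gram Q).det * (2 ^ Fintype.card ι * (LinearMap.det (1 + s))⁻¹) by rw [ha, hk]; ring]
    exact h.2
  · have h4 : Commute a (-(1 - s) * x⁻¹.val) :=
      ((Commute.one_right a).sub_right ha).neg_right.mul_right
        (Commute.units_inv_right (hx ▸ (Commute.one_right a).add_right ha))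
    rw [hc, hc]
    exact (LinearMap.congr_fun h4.eq v).symm

end Cayley

section Sub

variable {F W : Type*} [Field F] [AddCommGroup W] [Module F W] {Q : QuadraticForm F W}

theorem coe_pow_O (k : H12.O Q) (n : ℕ) :
    ((k ^ n).1 : End F W) = (k.1 : End F W) ^ n := by
  induction n with
  | zero => rfl
  | succ n ih => rw [pow_succ, pow_succ, ← ih]; rfl

theorem nondeg_fixS (hQ : H12.Nondeg Q) {k : H12.O Q} {r : ℕ} (hr : (r : F) ≠ 0) (hk : k ^ r = 1) :
    H12.Nondeg (Q.restrict (H12.fixS k)) := fun w hw => Subtype.ext (hQ _ fun v => by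
  have h1 : ∑ i ∈ Finset.range r, (k ^ i).1 v ∈ H12.fixS k := by
    rw [H12.mem_fixS, map_sum]
    have := Finset.sum_range_succ' (fun i => (k ^ i).1 v) r
    rw [Finset.sum_range_succ, hk, pow_zero, add_left_inj] at this
    rw [this]
    exact Finset.sum_congr rfl fun i _ => by rw [pow_succ', H12.O.mul_apply]
  have h2 : polar Q (w : W) (∑ i ∈ Finset.range r, (k ^ i).1 v) = 0 := by
    simpa [polar] using hw ⟨_, h1⟩
  have h3 : ∀ i : ℕ, (k ^ i).1 w = w := fun i => by
    induction i with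
    | zero => rfl
    | succ i ih => rw [pow_succ, H12.O.mul_apply, H12.mem_fixS.1 w.2, ih]
  rw [H12.B_sum_right, Finset.sum_congr rfl fun i _ => by rw [← h3 i, H12.O.map_B]] at h2
  simpa [hr] using h2)

theorem exists_Q_ne_of_ne (hQ : H12.Nondeg Q) {U : Submodule F W} (hU : U ≠ ⊥)
    (h : ∀ v, ∃ w ∈ U, ∀ u ∈ U, polar Q u v = polar Q u w) : ∃ w ∈ U, Q w ≠ 0 := by
  by_contra! h0
  refine hU (eq_bot_iff.2 fun u hu => hQ u fun v => ?_)
  obtain ⟨w, hw, h1⟩ := h v
  rw [h1 u hu, polar, h0 _ (add_mem hu hw), h0 _ hu, h0 _ hw]; simp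

variable [FiniteDimensional F W]

theorem finrank_fixS_add (k : H12.O Q) :
    finrank F (H12.mov k) + finrank F (H12.fixS k) = finrank F W := by
  have : H12.fixS k = LinearMap.ker (LinearMap.id - k.1.toLinearMap) := by
    ext v
    rw [H12.mem_fixS, LinearMap.mem_ker, LinearMap.sub_apply, sub_eq_zero, eq_comm]; rfl
  rw [this]
  exact LinearMap.finrank_range_add_finrank_ker _

theorem isSquare_of_sim_odd (hQ : H12.Nondeg Q) (ho : Odd (finrank F W)) {b : End F W} {c : F}
    (hb : ∀ w, Q (b w) = c * Q w) : IsSquare c := by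
  let e := (finBasis F W).equivFun
  have h1 : H12.Nondeg (Q.comp e.symm.toLinearMap) := hQ.congr e (by simp)
  have h2 := mul_right_cancel₀ (det_gram_ne h1) (det_sq_of_sim (c := c)
    (A := LinearMap.toMatrix' (e.toLinearMap ∘ₗ b ∘ₗ e.symm.toLinearMap)) fun v => by simp [hb])
  obtain ⟨k, hk⟩ := ho
  rcases eq_or_ne c 0 with rfl | hc
  · exact IsSquare.zero
  replace h2 := h2.trans (congrArg (c ^ ·) ((Fintype.card_fin _).trans hk))
  obtain ⟨y, h2⟩ : ∃ y : F, y ^ 2 = c ^ (2 * k + 1) := ⟨_, h2⟩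
  exact ⟨y / c ^ k, by rw [div_mul_div_comm, ← pow_two, h2]; field_simp; ring⟩

theorem exists_sim_of_even [Finite F] (hQ : H12.Nondeg Q) (he : Even (finrank F W)) (c : Fˣ) :
    ∃ b : End F W, ∀ w, Q (b w) = c * Q w := by
  let e := (finBasis F W).equivFun
  obtain ⟨m, hm⟩ := he
  obtain ⟨δ, hδ⟩ := exists_del (Q := Q.comp e.symm.toLinearMap) (hQ.congr e (by simp)) (m := m)
    (by simp [hm, two_mul]) c
  exact ⟨e.symm.toLinearMap ∘ₗ toLin' δ.val ∘ₗ e.toLinearMap, fun w => by simpa using hδ.sim (e w)⟩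

end Sub

section Odd

variable {ι : Type} [Fintype ι] [DecidableEq ι] {F : Type*} [Field F] [Finite F]
  {Q : QuadraticForm F (ι → F)}

omit [Finite F] in
theorem commute_of_mulVec {g h : GL ι F} (H : ∀ v, g.val *ᵥ (h.val *ᵥ v) = h.val *ᵥ (g.val *ᵥ v)) :
    Commute g h := Units.ext (toLin'.injective (LinearMap.ext fun v => by
  simpa [← mulVec_mulVec] using H v))

omit [Finite F] in
theorem commute_reflGL {k : H12.O Q} {w : ι → F} (hw : k.1 w = w) :
    Commute (reflGL Q w) (oGL Q k) := by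
  have := H12.refl_conj k w
  rw [hw, mul_inv_eq_iff_eq_mul] at this
  exact (Commute.map this (oGL Q)).symm

theorem exists_so_fix (hQ : H12.Nondeg Q) (h2 : (2 : F) ≠ 0) {k : H12.O Q} {r : ℕ}
    (hr : (r : F) ≠ 0) (hk : k ^ r = 1) (h : 2 ≤ finrank F (H12.fixS k)) :
    ∃ c ∈ specialIsometryGL F Q, c ∉ Geo.omegaGL Q ∧ Commute c (oGL Q k) := by
  obtain ⟨c, hc⟩ := exists_nonsq h2
  obtain ⟨u, hu⟩ := (nondeg_fixS hQ hr hk).universal h 1
  obtain ⟨w, hw⟩ := (nondeg_fixS hQ hr hk).universal h (c : F)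
  rw [restrict_apply] at hu hw
  have hu0 : Q u ≠ 0 := by rw [hu]; exact one_ne_zero
  have hw0 : Q w ≠ 0 := by rw [hw]; exact c.ne_zero
  refine ⟨_, refl_mul_refl_mem_so hu0 hw0, ?_, (commute_reflGL u.2).mul_left (commute_reflGL w.2)⟩
  rwa [refl_mul_refl_mem_omega hQ (H12.good_of_two_ne_zero hQ h2) hu0 hw0, hu, hw, one_mul]

/-- the data attached to an isometry of odd order prime to the characteristic -/
structure OD (Q : QuadraticForm F (ι → F)) (k : H12.O Q) (θ δ : End F (ι → F)) : Prop where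
  adj : ∀ u v, polar Q (θ u) v = polar Q u (θ v)
  skew : ∀ u v, polar Q (δ u) v = -polar Q u (δ v)
  comm : Commute δ θ
  sq : aeval θ (X ^ 2 - 4 : F[X]) = δ * δ
  add : ∀ v, θ v + δ v = (2 : F) • k.1 v
  ker : ∀ v, δ v = 0 ↔ k.1 v = v
  ker2 : ∀ v, δ (δ v) = 0 → k.1 v = v
  ss : θ.IsSemisimple
  nd : H12.Nondeg (Q.restrict (H12.fixS k))
  ev : Even (finrank F (H12.fixS k))

theorem exists_od (hQ : H12.Nondeg Q) (h2 : (2 : F) ≠ 0) (he : Even (Fintype.card ι)) {k : H12.O Q}
    {r : ℕ} (ho : Odd r) (hr : (r : F) ≠ 0) (hk : k ^ r = 1) : ∃ θ δ, OD Q k θ δ := by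
  have hG := H12.good_of_two_ne_zero hQ h2
  let g : End F (ι → F) := k.1
  let g' : End F (ι → F) := (k⁻¹).1
  have h1 : g * g' = 1 := LinearMap.ext (H12.O.apply_inv_apply k)
  have h1' : g' * g = 1 := LinearMap.ext (H12.O.inv_apply_apply k)
  have ha : ∀ u v, polar Q (g u) v = polar Q u (g' v) := H12.O.B_apply_left k
  have ha' : ∀ u v, polar Q (g' u) v = polar Q u (g v) := fun u v => by
    rw [polar_comm, ← ha, polar_comm]
  have hsk : ∀ u v, polar Q ((g - g') u) v = -polar Q u ((g - g') v) := fun u v => by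
    simp [ha, ha']
  obtain ⟨j, rfl⟩ := ho
  have hker : ∀ v, (g - g') v = 0 ↔ k.1 v = v := fun v => by
    rw [LinearMap.sub_apply, sub_eq_zero]
    refine ⟨fun h => ?_, fun h => h.trans (H12.O.inv_apply_eq_iff k |>.2 h.symm).symm⟩
    have h3 : ∀ i, ((k ^ 2) ^ i).1 v = v := fun i => by
      induction i with
      | zero => rfl
      | succ i ih =>
        rw [pow_succ, H12.O.mul_apply, pow_two, H12.O.mul_apply, show k.1 v = (k⁻¹).1 v from h,
          H12.O.apply_inv_apply, ← pow_two, ih]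
    have h4 := h3 (j + 1)
    rwa [← pow_mul, show 2 * (j + 1) = 2 * j + 1 + 1 by ring, pow_succ, hk, one_mul] at h4
  have hnd := nondeg_fixS hQ hr hk
  refine ⟨g + g', g - g', fun u v => ?_, hsk, ?_, ?_, fun v => ?_, hker, fun v hv => ?_, ?_, hnd, ?_⟩
  · simp [ha, ha', add_comm]
  · have : Commute g g' := h1.trans h1'.symm
    exact ((Commute.refl g).add_right this).sub_left (this.symm.add_right (Commute.refl g'))
  · rw [map_sub, map_pow, aeval_X, map_ofNat]
    exact (fun {R : Type _} [Ring R] (g g' : R) (h : g * g' = 1) (h' : g' * g = 1) =>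
      (by rw [show (4 : R) = 1 + 1 + 1 + 1 by norm_num]
          linear_combination (norm := noncomm_ring) h + h + h' + h' :
        (g + g') ^ 2 - 4 = (g - g') * (g - g'))) _ _ h1 h1'
  · simp [g, two_smul]
  · refine (hker v).1 (congrArg Subtype.val (hnd ⟨_, (hker _).1 hv⟩ fun w => ?_))
    have := hsk v w
    rw [(hker _).2 w.2] at this
    simpa [polar] using this
  · have h3 : g ^ (2 * j + 1) = 1 := by rw [← coe_pow_O, hk]; rfl
    have h4 : g.IsSemisimple := Module.End.isSemisimple_of_squarefree_aeval_eq_zero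
      (separable_X_pow_sub_C 1 hr one_ne_zero).squarefree (by simp [h3])
    have h5 : g' = g ^ (2 * j) := by rw [← one_mul g', ← h3, pow_succ, mul_assoc, h1, mul_one]
    have h6 := h4.aeval (X + X ^ (2 * j))
    rwa [map_add, map_pow, aeval_X, ← h5] at h6
  · have h3 := congrArg (H12.dk hQ hG) hk
    rw [map_pow, map_one, Int.units_pow_eq_pow_mod_two, Nat.mul_add_mod, show 1 % 2 = 1 from rfl, pow_one,
      H12.dk_apply,
      neg_one_pow_eq_one_iff_even (by decide)] at h3
    have h4 := finrank_fixS_add k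
    rw [Module.finrank_fintype_fun_eq_card] at h4
    exact (Nat.even_add.1 (h4 ▸ he)).1 h3

variable {k : H12.O Q} {θ δ : End F (ι → F)}

omit [Finite F] in
theorem OD.commute (d : OD Q k θ δ) (h2 : (2 : F) ≠ 0) {a : End F (ι → F)} (h : Commute θ a)
    (h' : Commute δ a) (v : ι → F) : a (k.1 v) = k.1 (a v) := by
  refine smul_right_injective _ h2 ?_
  simp only
  rw [← map_smul, ← d.add, ← d.add]
  exact (LinearMap.congr_fun (h.add_left h').eq v).symm

theorem OD.exists_sim (d : OD Q k θ δ) (hQ : H12.Nondeg Q) [Nonempty ι] (h2 : (2 : F) ≠ 0)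
    (he : Even (Fintype.card ι)) (μ : Fˣ) :
    ∃ h ∈ GOp Q, (∀ v, Q (h.val *ᵥ v) = μ * Q v) ∧ Commute h (oGL Q k) := by
  obtain ⟨S, T, U, h1, h3, h4, h5⟩ := exists_poly_norm h2 d.ss (X ^ 2 - 4) (C (μ : F))
  have hc : ∀ p q : F[X], Commute (aeval θ p) (aeval θ q) := fun p q => (Commute.all p q).map _
  have hδ := commute_aeval d.comm
  set ε := aeval θ ((X ^ 2 - 4) * U)
  have hε : ∀ w, k.1 w = w → ε w = 0 := fun w hw => by
    simp only [ε]
    rw [mul_comm, map_mul, d.sq, Module.End.mul_apply, Module.End.mul_apply, (d.ker w).2 hw]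
    simp
  have hε' : ∀ v, k.1 (v - ε v) = v - ε v := fun v => d.ker2 _ (by
    rw [← Module.End.mul_apply, ← d.sq, map_sub (aeval θ _ : End F _), ← Module.End.mul_apply,
      ← map_mul, mul_comm, h1, sub_self])
  let π : (ι → F) →ₗ[F] H12.fixS k := LinearMap.codRestrict _ (1 - ε) hε'
  obtain ⟨b, hb⟩ := exists_sim_of_even d.nd d.ev μ
  let a := aeval θ S + aeval θ T * δ
  have ha : ∀ u v, polar Q u (a v) = polar Q ((aeval θ S - δ * aeval θ T) u) v := fun u v => by
    simp [a, polar_aeval d.adj, d.skew]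
  have ha1 : (aeval θ S - δ * aeval θ T) * a = (μ : F) • ε := by
    rw [map_mul, aeval_C, ← Algebra.smul_def] at h5
    rw [← h5, map_sub, map_mul, d.sq, map_pow, map_pow]
    exact (fun {R : Type _} [Ring R] (s t δ : R) (e1 : δ * s = s * δ) (e2 : δ * t = t * δ)
      (e3 : s * t = t * s) => (by
        linear_combination (norm := noncomm_ring) δ * t * e2 + δ * e2 * t + δ * e3 - s * e2 -
          e1 * t : (s - δ * t) * (s + t * δ) = s ^ 2 - δ * δ * t ^ 2)) _ _ _ (hδ S).eq (hδ T).eq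
      (hc S T).eq
  have ha2 : ∀ w v, k.1 w = w → polar Q w (a v) = 0 := fun w v hw => by
    rw [ha, ← h3, ← h4, map_mul _ S, map_mul _ T]
    simp only [LinearMap.sub_apply, Module.End.mul_apply, show aeval θ _ w = 0 from hε w hw,
      map_zero, sub_zero, polar_zero_left]
  have hπ : ∀ v, (π v : ι → F) = v - ε v := fun v => rfl
  let h := a + (H12.fixS k).subtype ∘ₗ b ∘ₗ π
  have hh : ∀ v, h v = a v + b (π v) := fun v => rfl
  have hsim : ∀ v, Q (h v) = μ * Q v := fun v => by
    have e1 : Q (b (π v)) = μ * Q (v - ε v) := hb (π v)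
    have e2 := ha (a v) v
    have e3 := ha2 _ v (b (π v)).2
    have e4 := polar_aeval d.adj ((X ^ 2 - 4) * U) (v - ε v) v
    rw [← Module.End.mul_apply, ha1, H12.B_self, LinearMap.smul_apply, H12.B_smul_left] at e2
    rw [hε _ (hε' v), polar_zero_left, polar_sub_left, H12.B_self] at e4
    rw [hh, H12.Q_add, polar_comm, e3, e1, H12.Q_sub, polar_comm]
    rw [polar_comm] at e4
    apply mul_left_cancel₀ h2
    linear_combination e2 + μ * e4
  obtain ⟨g, hg⟩ := exists_GL_of_sim hQ μ.ne_zero hsim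
  have haθ : Commute θ a := ((commute_aeval (Commute.refl θ) S).add_right
    ((commute_aeval (Commute.refl θ) T).mul_right d.comm.symm))
  have haδ : Commute δ a := (hδ S).add_right ((hδ T).mul_right (Commute.refl δ))
  have hcomm : Commute g (oGL Q k) := commute_of_mulVec fun v => by
    have : π (k.1 v) = π v := Subtype.ext (by
      rw [hπ, hπ, d.commute h2 (commute_aeval (Commute.refl θ) _) (hδ _), ← map_sub, hε'])
    rw [oGL_mulVec, oGL_mulVec, hg, hg, hh, hh, map_add, d.commute h2 haθ haδ, this,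
      H12.mem_fixS.1 (b (π v)).2]
  have hg' : ∀ v, Q (g.val *ᵥ v) = μ * Q v := fun v => by rw [hg, hsim]
  by_cases h0 : H12.fixS k = ⊥
  · refine ⟨g, mem_GOp.2 ⟨μ, hg', ?_, fun h => absurd h h2⟩, hg', hcomm⟩
    obtain ⟨m, hm⟩ := he
    have hD : ∀ v, LinearMap.toMatrix' δ *ᵥ v = δ v := LinearMap.toMatrix'_mulVec δ
    rw [show Fintype.card ι / 2 = m by omega]
    refine H30.Gr.alt_det (M := gram Q * LinearMap.toMatrix' δ) ?_ (fun v => ?_) (by omega) ?_
    · rw [det_mul, LinearMap.det_toMatrix']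
      refine mul_ne_zero (det_gram_ne hQ) (IsUnit.ne_zero ?_)
      rw [← LinearMap.isUnit_iff_isUnit_det, LinearMap.isUnit_iff_ker_eq_bot, eq_bot_iff, ← h0]
      exact fun v hv => (d.ker v).1 hv
    · rw [H30.Gr.mf, ← mulVec_mulVec, ← polar_eq_gram, hD]
      have := d.skew v v
      rw [polar_comm] at this
      exact (mul_eq_zero.1 (by linear_combination this : 2 * polar Q v (δ v) = 0)).resolve_left h2
    · have h6 : ∀ v, h v = a v := fun v => by
        rw [hh, (Submodule.eq_bot_iff _).1 h0 _ (b (π v)).2, add_zero]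
      ext i j
      have := gram_congr (Q := Q) 1 (LinearMap.toMatrix' δ) i j
      rw [transpose_one, Matrix.one_mul] at this
      rw [Matrix.mul_assoc, Matrix.mul_assoc, ← Matrix.mul_assoc, gram_congr, Matrix.smul_apply, this,
        ← mulVec_mulVec, hD, hD, hg, hg, h6 (Pi.single j 1), ← Module.End.mul_apply, haδ.eq,
        Module.End.mul_apply, ← h6, polar_of_sim hsim, one_mulVec, smul_eq_mul]
  by_cases h7 : g ∈ GOp Q
  · exact ⟨g, h7, hg', hcomm⟩
  obtain ⟨w, -, hw⟩ := exists_Q_ne_of_ne d.nd (U := ⊤)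
    (have := Submodule.nontrivial_iff_ne_bot.2 h0; top_ne_bot) fun v => ⟨v, trivial, fun _ _ => rfl⟩
  refine ⟨_, mul_reflGL_mem_GOp hQ (H12.good_of_two_ne_zero hQ h2) he hw (mem_GO.2 ⟨μ, hg'⟩) h7,
    fun v => ?_, hcomm.mul_left (commute_reflGL w.2)⟩
  rw [Units.val_mul, ← mulVec_mulVec, hg', H12.mem_isometryGroup.1 (reflGL_mem _)]

theorem OD.exists_so (d : OD Q k θ δ) (hQ : H12.Nondeg Q) [Nonempty ι] (h2 : (2 : F) ≠ 0)
    (he : Even (Fintype.card ι)) (hn : GeneralLinearGroup.scalar ι (-1 : Fˣ) ∈ Geo.omegaGL Q)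
    (h0 : H12.fixS k = ⊥) :
    ∃ c ∈ specialIsometryGL F Q, c ∉ Geo.omegaGL Q ∧ Commute c (oGL Q k) := by
  have hθ := Algebra.IsIntegral.isIntegral (R := F) θ
  obtain ⟨f, hf, hf', p, hp⟩ := exists_monic_irreducible_factor _ (minpoly.not_isUnit F θ)
  have := Fact.mk hf'
  have : Module.Finite F (AdjoinRoot f) := hf.finite_adjoinRoot
  have : Finite (AdjoinRoot f) := Module.finite_of_finite F
  have hδ := commute_aeval d.comm
  obtain ⟨w, hw, hw0⟩ : ∃ w ∈ LinearMap.ker (aeval θ f), Q w ≠ 0 := by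
    obtain ⟨-, -, U, h1, -⟩ := exists_poly_norm h2 d.ss f 0
    refine exists_Q_ne_of_ne hQ (fun h => hf'.not_isUnit ?_) fun v =>
      ⟨v - aeval θ (f * U) v, ?_, fun u hu => ?_⟩
    · have h3 : aeval θ p = 0 := LinearMap.ext fun v => LinearMap.ker_eq_bot'.1 h _ (by
        rw [← Module.End.mul_apply, ← map_mul, ← hp, minpoly.aeval]; rfl)
      have h4 := minpoly.dvd F θ h3
      rw [hp, mul_comm] at h4
      exact isUnit_of_dvd_one ((mul_dvd_mul_iff_left (a := p) (by
        rintro rfl; exact minpoly.ne_zero hθ (by simpa using hp))).1 (by simpa using h4))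
    · rw [LinearMap.mem_ker, map_sub, ← Module.End.mul_apply, ← map_mul, mul_comm, h1, sub_self]
    · rw [polar_sub_right, map_mul, Module.End.mul_apply, ← polar_aeval d.adj, LinearMap.mem_ker.1 hu]
      simp
  replace hw : aeval θ f w = 0 := hw
  have hw' : aeval θ f (δ w) = 0 := by
    rw [← Module.End.mul_apply, ← (hδ f).eq, Module.End.mul_apply, hw, map_zero]
  have h1 : ∀ v, al Q θ hf (δ w) v = -al Q θ hf w (δ v) := fun v => eq_of_trace hf fun x => by
    rw [neg_mul, map_neg, trace_al, trace_al, pw_comm hf d.comm, d.skew, neg_neg]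
  have h2' : (2 : AdjoinRoot f) ≠ 0 := fun h =>
    h2 ((algebraMap F (AdjoinRoot f)).injective (by rw [map_ofNat, h, map_zero]))
  have h3 : al Q θ hf w (δ w) = 0 := by
    have := h1 w
    rw [al_comm hf d.adj hw' hw] at this
    exact (mul_eq_zero.1 (by linear_combination this : 2 * al Q θ hf w (δ w) = 0)).resolve_left h2'
  have hη := al_self_ne hf h2 hw hw0
  have hd : AdjoinRoot.mk f (X ^ 2 - 4) ≠ 0 := fun h => by
    have := pw_mk hf hw (X ^ 2 - 4)
    rw [h, map_zero, d.sq] at this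
    exact H12.ne_zero_of_Q_ne hw0 ((Submodule.eq_bot_iff _).1 h0 _ (d.ker2 _ this.symm))
  obtain ⟨t, ht⟩ := exists_not_isSquare_one_sub h2' hd h2' (u := AdjoinRoot.root f) (by
    rw [map_sub, map_pow, map_ofNat, AdjoinRoot.mk_X]; ring)
  have h4 : ∀ v, al Q θ hf w (δ (δ v)) = AdjoinRoot.mk f (X ^ 2 - 4) * al Q θ hf w v := fun v => by
    rw [← al_aeval hf d.adj hw, d.sq]; rfl
  obtain ⟨c, hc, hc', h5⟩ := exists_cayley hQ h2 he hn
    (skw_skew hf w (δ w) (t / al Q θ hf w w)) (by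
      rw [det_skw hf d.adj hw hw' h3, h1, h4]
      refine not_isSquare_norm h2 ?_
      convert ht using 2
      field_simp
      ring)
  refine ⟨c, hc, hc', commute_of_mulVec fun v => ?_⟩
  rw [oGL_mulVec, oGL_mulVec]
  refine h5 k.1 (LinearMap.ext fun v => (d.commute h2 (skw_comm hf d.adj hw hw' _) ?_ v).symm) v
  refine LinearMap.ext fun v => ?_
  rw [Module.End.mul_apply, Module.End.mul_apply, skw_apply, skw_apply, h1, h1, h4, map_sub,
    pw_comm hf d.comm, pw_comm hf d.comm, mul_neg, mul_neg, map_neg, map_neg, map_neg,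
    mul_left_comm, pw_mul hf hw, d.sq, sub_neg_eq_add, sub_neg_eq_add, add_comm]
  rfl

theorem exists_so_comm (hQ : H12.Nondeg Q) [Nonempty ι] (h2 : (2 : F) ≠ 0)
    (he : Even (Fintype.card ι)) (hn : GeneralLinearGroup.scalar ι (-1 : Fˣ) ∈ Geo.omegaGL Q)
    {r : ℕ} (ho : Odd r) (hr : (r : F) ≠ 0) (hk : k ^ r = 1) :
    ∃ c ∈ specialIsometryGL F Q, c ∉ Geo.omegaGL Q ∧ Commute c (oGL Q k) := by
  obtain ⟨θ, δ, d⟩ := exists_od hQ h2 he ho hr hk
  by_cases h0 : H12.fixS k = ⊥
  · exact d.exists_so hQ h2 he hn h0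
  refine exists_so_fix hQ h2 hr hk ?_
  have h1 := Submodule.finrank_eq_zero.not.2 h0
  obtain ⟨j, hj⟩ := d.ev
  omega

end Odd

end H67
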