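import Cfsg.Agent.Lib.AutCl.OCent

/-!
Fusion of semisimple classes and of involutory graph automorphisms of orthogonal groups.
-/

set_option autoImplicit false
set_option linter.unusedSectionVars false

namespace H67

open Subgroup Cfsg Matrix Module QuadraticMap Polynomial

variable {ι : Type} [Fintype ι] [DecidableEq ι] {F : Type*} [Field F]

section Odd

variable [Finite F] {Q : QuadraticForm F (ι → F)} {q : (ι → F) → F}

theorem exists_mul_inv_mem_omega (hQ : H12.Nondeg Q) [Nonempty ι] (h2 : (2 : F) ≠ 0)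
    (he : Even (Fintype.card ι)) {P : GL ι F → Prop} (h1 : P 1)
    (hP : GeneralLinearGroup.scalar ι (-1 : Fˣ) ∈ Geo.omegaGL Q →
      ∃ c ∈ specialIsometryGL F Q, c ∉ Geo.omegaGL Q ∧ P c)
    {h : GL ι F} (hh : h ∈ ZZ (specialIsometryGL F Q)) :
    ∃ c ∈ specialIsometryGL F Q, P c ∧ h * c⁻¹ ∈ ZZ (Geo.omegaGL Q) := by
  have hG := H12.good_of_two_ne_zero hQ h2
  by_cases h3 : h ∈ ZZ (Geo.omegaGL Q)
  · exact ⟨1, one_mem _, h1, by simpa using h3⟩
  by_cases hn : GeneralLinearGroup.scalar ι (-1 : Fˣ) ∈ Geo.omegaGL Q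
  · obtain ⟨c, hc, hc', h4⟩ := hP hn
    exact ⟨c, hc, h4, mul_mem_ZZ_omega hQ hG h2 hh h3 (le_ZZ _ (inv_mem hc)) fun h =>
      hc' (((negOK_of_mem hn).mem_iff hQ hc).1 ((inv_mem_iff).1 h))⟩
  · exact absurd (ZZ_so_eq hQ hG h2 he hn ▸ hh) h3

theorem exists_comm_sim (hQ : H12.Nondeg Q) [Nonempty ι] (h2 : (2 : F) ≠ 0)
    (he : Even (Fintype.card ι)) {k : H12.O Q} {r : ℕ} (ho : Odd r) (hr : (r : F) ≠ 0)
    (hk : k ^ r = 1) {h : GL ι F} (hh : h ∈ GO Q) : ∃ c ∈ GOp Q, Commute c (oGL Q k) ∧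
      ∀ v, Q ((h * c⁻¹).val *ᵥ v) = (1 : Fˣ) * Q v := by
  obtain ⟨μ, hμ⟩ := mem_GO.1 hh
  obtain ⟨θ, δ, d⟩ := exists_od hQ h2 he ho hr hk
  obtain ⟨c, hc, h1, h3⟩ := d.exists_sim hQ h2 he μ
  refine ⟨c, hc, h3, fun v => ?_⟩
  rw [Units.val_mul, ← mulVec_mulVec, hμ, ← h1, mulVec_mulVec, ← Units.val_mul]
  simp

omit [Finite F] in
theorem isConjUnder_of_decomp {G H : Subgroup (GL ι F)} (hG : G ≤ GO q) {k : GO q}
    (h : ∀ g ∈ G, ∃ c ∈ G, Commute c k ∧ g * c⁻¹ ∈ H) {y : MulAut (POmega F q)}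
    (hy : IsConjUnder (pomInn q G hG).range (pomInn q _ le_rfl k) y) :
    IsConjUnder ((H.subgroupOf G).map (pomInn q G hG)) (pomInn q _ le_rfl k) y := by
  obtain ⟨_, ⟨g, rfl⟩, rfl⟩ := hy
  obtain ⟨c, hc, h1, h3⟩ := h g g.2
  have h4 : Commute (pomInn q G hG ⟨c, hc⟩) (pomInn q _ le_rfl k) :=
    Commute.map (show Commute ⟨c, hG hc⟩ k from Subtype.ext h1) (pomInn q _ le_rfl)
  refine ⟨_, ⟨g * (⟨c, hc⟩ : G)⁻¹, h3, rfl⟩, ?_⟩
  rw [map_mul, map_inv, mul_assoc (pomInn q G hG g) (_⁻¹), h4.inv_left.eq]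
  group

theorem exists_lift_odd (hQ : H12.Nondeg Q) (h5 : 5 ≤ Fintype.card ι) (he : Even (Fintype.card ι))
    {g : GO Q} {r : ℕ} (ho : Odd r) (hg : pomInn Q _ le_rfl g ^ r = 1) :
    ∃ k : H12.O Q, k ^ r = 1 ∧
      pomInn Q _ le_rfl g = pomInn Q _ le_rfl ⟨oGL Q k, iso_le_GO _ (oGL_mem k)⟩ := by
  have : Nonempty ι := Fintype.card_pos_iff.1 (by omega)
  have hq : NQ Q := ⟨Q, rfl, hQ⟩
  have h1 : g.1 ^ r ∈ center (GL ι F) := by
    rwa [← map_pow, pomInn_eq_one_iff hq h5] at hg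
  have h3 : g.1 ∈ ZZ (Geo.omegaGL Q) := by
    have h4 := pow_four_mem hQ h5 (Or.inr he) g.2
    obtain ⟨j, rfl⟩ := ho
    have h6 := center_le_ZZ (Geo.omegaGL Q) (pow_mem h1 (2 * j + 1))
    rw [← pow_mul, show (2 * j + 1) * (2 * j + 1) = 4 * (j * j + j) + 1 by ring, pow_succ,
      pow_mul] at h6
    exact (mul_mem_cancel_left (pow_mem h4 _)).1 h6
  obtain ⟨c, hc⟩ := mem_ZZ.1 h3
  obtain ⟨k, hk⟩ := exists_oGL (omega_le_iso _ hc)
  have h4 : pomInn Q _ le_rfl g = pomInn Q _ le_rfl ⟨oGL Q k, iso_le_GO _ (oGL_mem k)⟩ :=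
    (innHom_eq_of_center _ (scalar_mem_center c) hk).symm
  have h6 : (k ^ r) ^ 2 = 1 := by
    rw [h4, ← map_pow, pomInn_eq_one_iff hq h5, SubmonoidClass.coe_pow, ← map_pow,
      oGL_mem_center hQ] at hg
    rcases hg with h | h
    · rw [h, one_pow]
    · rw [h]; exact H12.O.ext fun v => by simp [pow_two, H12.negO_apply]
  refine ⟨k ^ (r + 1), ?_, ?_⟩
  · obtain ⟨j, hj⟩ := ho
    rw [← pow_mul, show (r + 1) * r = r * 2 * (j + 1) by rw [hj]; ring, pow_mul, pow_mul, h6, one_pow]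
  · rw [← one_mul (pomInn Q _ le_rfl g), ← hg, ← pow_succ, h4, ← map_pow]
    exact congrArg _ (Subtype.ext (map_pow _ _ _).symm)

theorem fusion_odd (hq : NQ q) (h5 : 5 ≤ Fintype.card ι) (h2 : (2 : F) ≠ 0)
    (he : Even (Fintype.card ι)) {x : MulAut (POmega F q)} (hx : x ∈ pgoAut F q) {r : ℕ}
    (ho : Odd r) (hr : (r : F) ≠ 0) (hxr : orderOf x = r) {P : Subgroup (MulAut (POmega F q))}
    (hP : P = (pomInn q _ (GOp_le q)).range) :
    (∀ y, (IsConjUnder (Inn (POmega F q)) x y ↔ IsConjUnder P x y) ∧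
      (IsConjUnder (psoAut F q) x y ↔ IsConjUnder P x y)) ∧
    ∀ y, IsConjUnder (poAut F q) x y ↔ IsConjUnder (pgoAut F q) x y := by
  have : Nonempty ι := Fintype.card_pos_iff.1 (by omega)
  obtain ⟨Q, rfl, hQ⟩ := hq
  rw [pgoAut_eq] at hx ⊢
  obtain ⟨g, rfl⟩ := hx
  obtain ⟨k, hk, h1⟩ := exists_lift_odd hQ h5 he ho (hxr ▸ pow_orderOf_eq_one _)
  rw [h1, hP, inn_eq_map_ZZ (GOp_le _) (omega_le_GOp _), psoAut_eq_map_ZZ (GOp_le _) (so_le_GOp h2),
    poAut_eq, range_pomInn_eq le_rfl (iso_le_GO _)]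
  have key : ∀ h ∈ GOp Q, ∃ c ∈ GOp Q, Commute c (oGL Q k) ∧ h * c⁻¹ ∈ ZZ (Geo.omegaGL Q) := by
    intro h hh
    obtain ⟨c, hc, h3, h4⟩ := exists_comm_sim hQ h2 he ho hr hk (GOp_le _ hh)
    obtain ⟨c', hc', h6, h7⟩ := exists_mul_inv_mem_omega hQ h2 he
      (P := fun c => Commute c (oGL Q k)) (Commute.one_left _)
      (fun hn => exists_so_comm hQ h2 he hn ho hr hk)
      (mem_ZZ_so hQ he (mul_mem hh (inv_mem hc)) h4 (by simp))
    exact ⟨c' * c, mul_mem (so_le_GOp h2 hc') hc, h6.mul_left h3, by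
      rwa [_root_.mul_inv_rev, ← mul_assoc]⟩
  refine ⟨fun y => ⟨⟨isConjUnder_mono (map_le_range _ _), isConjUnder_of_decomp _ key⟩,
    isConjUnder_mono (map_le_range _ _), isConjUnder_of_decomp _ fun h hh => ?_⟩,
    fun y => ⟨isConjUnder_mono (map_le_range _ _), isConjUnder_of_decomp _ fun h hh => ?_⟩⟩
  · obtain ⟨c, hc, h3, h4⟩ := key h hh
    exact ⟨c, hc, h3, ZZ_mono (omega_le_so _) h4⟩
  · obtain ⟨c, hc, h3, h4⟩ := exists_comm_sim hQ h2 he ho hr hk hh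
    exact ⟨c, GOp_le _ hc, h3, H12.mem_isometryGroup.2 fun v => by simpa using h4 v⟩

end Odd

section Graph

variable {Q : QuadraticForm F (ι → F)} {q : (ι → F) → F}

theorem det_of_not_isSquare {m : ℕ} (hm : Fintype.card ι = 2 * m) {g : Matrix ι ι F} {μ : F}
    (hg : g * g = μ • 1) (hμ : ¬ IsSquare μ) : g.det = (-μ) ^ m := by
  have hp : Prime (X ^ 2 - C μ : F[X]) :=
    (X_pow_sub_C_irreducible_of_prime Nat.prime_two fun b hb => hμ ⟨b, by rw [← hb, pow_two]⟩).prime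
  have h3 : g.map C * g.map C = (C μ : F[X]) • 1 := by
    rw [← Matrix.map_mul, hg]
    ext i j
    by_cases h : i = j <;> simp [h, one_apply]
  have h4 : charmatrix (-g) = (X : F[X]) • 1 + g.map C := by
    ext i j : 2
    by_cases h : i = j <;> simp [h, one_apply]
  have h4' : charmatrix g = (X : F[X]) • 1 - g.map C := by
    ext i j : 2
    by_cases h : i = j <;> simp [h, one_apply]
  have h5 : charmatrix (-g) * charmatrix g = (X ^ 2 - C μ : F[X]) • 1 := by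
    rw [h4, h4', Matrix.add_mul, Matrix.mul_sub, Matrix.mul_sub, h3]
    simp only [Matrix.smul_mul, Matrix.mul_smul, Matrix.one_mul, Matrix.mul_one]
    module
  have h6 := congrArg det h5
  rw [det_mul, det_smul, det_one, mul_one] at h6
  obtain ⟨i, -, hi⟩ := (dvd_prime_pow hp _).1 (Dvd.intro _ h6)
  have h8 : (-g).charpoly = (X ^ 2 - C μ) ^ i :=
    eq_of_monic_of_associated (charpoly_monic _) ((monic_X_pow_sub_C μ two_ne_zero).pow i) hi
  have h7 := congrArg natDegree h8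
  rw [charpoly_natDegree_eq_dim, natDegree_pow, natDegree_X_pow_sub_C, hm] at h7
  have h9 := eval_charpoly (-g) 0
  rw [h8, show i = m by omega] at h9
  simpa using h9.symm

/-- elements commuting with a given one up to a scalar -/
def cmod (g : GL ι F) : Subgroup (GL ι F) :=
  (centralizer {(g : GL ι F ⧸ center (GL ι F))}).comap (QuotientGroup.mk' _)

theorem mem_cmod {g h : GL ι F} : h ∈ cmod g ↔ g * h * g⁻¹ * h⁻¹ ∈ center (GL ι F) := by
  rw [cmod, mem_comap, mem_cent_iff, ← mul_inv_eq_one, ← QuotientGroup.eq_one_iff]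
  rfl

/-- a self-adjoint square root of a scalar outside the inner-diagonal group -/
structure GD (Q : QuadraticForm F (ι → F)) (g : GL ι F) (μ : Fˣ) : Prop where
  sim : ∀ v, Q (g.val *ᵥ v) = μ * Q v
  sq : g.val * g.val = (μ : F) • 1
  det : g.val.det = -μ ^ (Fintype.card ι / 2)

theorem GD.adj {g : GL ι F} {μ : Fˣ} (d : GD Q g μ) (u v : ι → F) :
    polar Q (g.val *ᵥ u) v = polar Q u (g.val *ᵥ v) := mul_left_cancel₀ μ.ne_zero (by
  rw [← polar_of_sim (h := toLin' g.val) d.sim, toLin'_apply, toLin'_apply,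
    mulVec_mulVec_sq d.sq, H12.B_smul_left])

theorem exists_gd (hQ : H12.Nondeg Q) [Nonempty ι] (h2 : (2 : F) ≠ 0) (he : Even (Fintype.card ι))
    {g : GL ι F} (hg : g ∈ GO Q) (hg' : g ∉ GOp Q) (h : g ^ 2 ∈ center (GL ι F)) :
    ∃ μ, GD Q g μ := by
  obtain ⟨κ, hκ⟩ := mem_GO.1 hg
  obtain ⟨μ, hμ⟩ := mem_center_iff_smul.1 h
  obtain ⟨m, hm⟩ := he
  have hg2 : g.val * g.val = μ • 1 := toLin'.injective (LinearMap.ext fun v => by
    rw [toLin'_apply, toLin'_apply, ← Units.val_mul, ← pow_two, hμ, smul_mulVec, one_mulVec])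
  obtain ⟨w, hw⟩ := exists_Q_ne hQ
  have hκμ : (κ : F) ^ 2 = μ ^ 2 := by
    have := hκ (g.val *ᵥ w)
    rw [mulVec_mulVec_sq hg2, hκ, H12.Q_smul] at this
    exact mul_right_cancel₀ hw (by linear_combination -this)
  have hd : g.val.det ≠ κ ^ m := fun h => hg' (mem_GOp.2
    ⟨κ, hκ, by rw [h]; congr 1; omega, fun h => absurd h h2⟩)
  rcases sq_eq_sq_iff_eq_or_eq_neg.1 hκμ with h | h
  · refine ⟨κ, hκ, h ▸ hg2, ?_⟩
    have h1 := mul_right_cancel₀ (det_gram_ne hQ) (det_sq_of_sim hκ)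
    rw [hm, pow_add, ← pow_two] at h1
    rw [show Fintype.card ι / 2 = m by omega]
    exact (sq_eq_sq_iff_eq_or_eq_neg.1 h1).resolve_left hd
  · refine absurd ?_ hd
    rw [h]
    refine det_of_skew hQ (by omega) hg2 fun u v => mul_left_cancel₀ κ.ne_zero ?_
    rw [mul_neg, ← polar_of_sim (h := toLin' g.val) hκ u, toLin'_apply, toLin'_apply,
      mulVec_mulVec_sq hg2, H12.B_smul_right, h, neg_mul]

theorem GD.exists_invol {g : GL ι F} {t : Fˣ} (d : GD Q g (t ^ 2)) (he : Even (Fintype.card ι)) :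
    ∃ k : H12.O Q, k ^ 2 = 1 ∧ H12.detO Q k = -1 ∧ ∀ v, g.val *ᵥ v = (t : F) • k.1 v := by
  obtain ⟨k, hk⟩ := exists_oGL (scalar_mul_mem_iso d.sim rfl)
  have h1 : ∀ v, k.1 v = (t⁻¹ : Fˣ) • g.val *ᵥ v := fun v => by
    rw [← oGL_mulVec, hk, Units.val_mul, scalar_val, smul_mul_assoc, one_mul, smul_mulVec]; rfl
  refine ⟨k, H12.O.ext fun v => ?_, ?_, fun v => by rw [h1]; simp [Units.smul_def]⟩
  · rw [pow_two, H12.O.mul_apply, h1, h1, Units.smul_def, Units.smul_def, mulVec_smul,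
      mulVec_mulVec_sq d.sq, smul_smul, smul_smul, ← Units.val_mul, ← Units.val_mul, ← pow_two,
      ← mul_pow]
    simp
  · obtain ⟨m, hm⟩ := he
    rw [← det_oGL, hk, det_scalar_mul, d.det, show Fintype.card ι / 2 = m by omega, hm]
    simp [← pow_mul, two_mul]

theorem finrank_fixS_neg (h2 : (2 : F) ≠ 0) {k : H12.O Q} (hk : k ^ 2 = 1) :
    finrank F (H12.fixS (H12.negO Q * k)) + finrank F (H12.fixS k) = Fintype.card ι := by
  rw [← Module.finrank_fintype_fun_eq_card F, ← finrank_fixS_add k]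
  suffices H12.fixS (H12.negO Q * k) = H12.mov k by rw [this]
  ext w
  refine ⟨fun hw => H12.mem_mov.2 ⟨(2 : F)⁻¹ • w, ?_⟩, fun hw => ?_⟩
  · rw [map_smul, show k.1 w = -w from neg_eq_iff_eq_neg.1 hw, ← smul_sub, sub_neg_eq_add,
      ← two_smul F, inv_smul_smul₀ h2]
  · obtain ⟨y, rfl⟩ := H12.mem_mov.1 hw
    change -k.1 _ = _
    rw [map_sub, ← H12.O.mul_apply, ← pow_two, hk, neg_sub]; rfl

theorem neg_mul_sq {k : H12.O Q} (hk : k ^ 2 = 1) : (H12.negO Q * k) ^ 2 = 1 :=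
  H12.O.ext fun v => by
    rw [← hk, pow_two, pow_two]
    simp [H12.negO_apply]

variable [Finite F]

theorem GD.exists_so {g : GL ι F} {μ : Fˣ} (d : GD Q g μ) (hQ : H12.Nondeg Q)
    (h5 : 5 ≤ Fintype.card ι) (h2 : (2 : F) ≠ 0) (he : Even (Fintype.card ι))
    (hn : GeneralLinearGroup.scalar ι (-1 : Fˣ) ∈ Geo.omegaGL Q) :
    ∃ c ∈ specialIsometryGL F Q, c ∉ Geo.omegaGL Q ∧ Commute c g := by
  have : Nonempty ι := Fintype.card_pos_iff.1 (by omega)
  by_cases hμ : IsSquare (μ : F)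
  · obtain ⟨t, rfl⟩ := exists_units_sq hμ
    obtain ⟨k, hk, -, h1⟩ := d.exists_invol he
    have h3 := finrank_fixS_neg h2 hk
    rcases le_or_gt 2 (finrank F (H12.fixS k)) with h | h
    · obtain ⟨c, hc, hc', h4⟩ := exists_so_fix hQ h2 (r := 2) h2 hk h
      refine ⟨c, hc, hc', commute_of_mulVec fun v => ?_⟩
      rw [h1, h1, mulVec_smul, ← oGL_mulVec, ← oGL_mulVec, mulVec_mulVec, mulVec_mulVec,
        ← Units.val_mul, h4.eq, Units.val_mul]
    · obtain ⟨c, hc, hc', h4⟩ := exists_so_fix hQ h2 (r := 2) h2 (neg_mul_sq hk) (by omega)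
      refine ⟨c, hc, hc', commute_of_mulVec fun v => ?_⟩
      have h6 : ∀ v, k.1 v = -((oGL Q (H12.negO Q * k)).val *ᵥ v) := fun v => by
        rw [oGL_mulVec]; exact (neg_neg _).symm
      rw [h1, h1, mulVec_smul, h6, h6, mulVec_neg, mulVec_mulVec, mulVec_mulVec,
        ← Units.val_mul, h4.eq, Units.val_mul]
  have hf : (X ^ 2 - C (μ : F)).Monic := monic_X_pow_sub_C _ two_ne_zero
  have := Fact.mk (X_pow_sub_C_irreducible_of_prime Nat.prime_two
    fun b (hb : b ^ 2 = (μ : F)) => hμ ⟨b, by rw [← hb, pow_two]⟩)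
  have := hf.finite_adjoinRoot
  have : Finite (AdjoinRoot (X ^ 2 - C (μ : F))) := Module.finite_of_finite F
  have h0 : ∀ v, aeval (toLin' g.val) (X ^ 2 - C (μ : F)) v = 0 := fun v => by
    simp [pow_two, mulVec_mulVec_sq d.sq, -mulVec_mulVec]
  have ha : ∀ u v, polar Q (toLin' g.val u) v = polar Q u (toLin' g.val v) := d.adj
  obtain ⟨u, hu⟩ := exists_Q_ne hQ
  have hη := al_self_ne hf h2 (h0 u) hu
  obtain ⟨w, hw, hw0⟩ : ∃ w ∈ LinearMap.ker (al Q (toLin' g.val) hf u), Q w ≠ 0 := by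
    refine exists_Q_ne_of_ne hQ (LinearMap.ker_ne_bot_of_finrank_lt ?_) fun v =>
      ⟨v - pw (toLin' g.val) hf u (al Q (toLin' g.val) hf u v / al Q (toLin' g.val) hf u u), ?_,
        fun u' hu' => ?_⟩
    · rw [(AdjoinRoot.powerBasis' hf).finrank, AdjoinRoot.powerBasis'_dim, natDegree_X_pow_sub_C,
        Module.finrank_fintype_fun_eq_card]
      omega
    · rw [LinearMap.mem_ker, map_sub, al_pw hf ha (h0 u) (h0 u), div_mul_cancel₀ _ hη, sub_self]
    · rw [polar_sub_right, ← trace_al, LinearMap.mem_ker.1 hu']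
      simp
  have hη' := al_self_ne hf h2 (h0 w) hw0
  have h2' : (2 : AdjoinRoot (X ^ 2 - C (μ : F))) ≠ 0 := fun h =>
    h2 ((algebraMap F (AdjoinRoot (X ^ 2 - C (μ : F)))).injective (by rw [map_ofNat, h, map_zero]))
  have hd := neg_ne_zero.2 (mul_ne_zero hη hη')
  obtain ⟨a, ha0, ha1⟩ : ∃ a, a ≠ 0 ∧
      a ^ 2 ≠ -(al Q (toLin' g.val) hf u u * al Q (toLin' g.val) hf w w) := by
    by_contra! h
    have h3 : AdjoinRoot.root (X ^ 2 - C (μ : F)) ^ 2 = algebraMap F _ μ := by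
      have := AdjoinRoot.eval₂_root (X ^ 2 - C (μ : F))
      rwa [eval₂_sub, eval₂_X_pow, eval₂_C, sub_eq_zero] at this
    have h4 := (h (AdjoinRoot.root _) fun h0 => μ.ne_zero
      ((algebraMap F _).injective (by rw [← h3, h0, map_zero, zero_pow two_ne_zero]))).trans
      (h 1 one_ne_zero).symm
    rw [h3, one_pow, ← map_one (algebraMap F _)] at h4
    exact hμ (by rw [(algebraMap F _).injective h4]; exact IsSquare.one)
  generalize hD : -(al Q (toLin' g.val) hf u u * al Q (toLin' g.val) hf w w) = D at hd ha1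
  obtain ⟨t, ht⟩ := exists_not_isSquare_one_sub h2' hd (u := (a + D / a) / 2) (z := (a - D / a) / 2)
    (div_ne_zero (fun h => ha1 (by field_simp at h; linear_combination h)) h2')
    (by field_simp; ring)
  obtain ⟨c, hc, hc', h6⟩ := exists_cayley hQ h2 he hn (skw_skew hf u w t) (by
    rw [det_skw hf ha (h0 u) (h0 w) hw]
    refine not_isSquare_norm h2 ?_
    convert ht using 1
    rw [← hD]; ring_nf)
  exact ⟨c, hc, hc', commute_of_mulVec (h6 _ (skw_comm hf ha (h0 u) (h0 w) t))⟩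

theorem d8_aux : ∀ x y z : DihedralGroup 4, z ≠ 1 → (∀ a, a * z = z * a) → x * y = y * x →
    x = 1 ∨ x = z ∨ y = 1 ∨ y = z ∨ y = x ∨ y = x * z := by decide

theorem cmod_le_of_neg (hQ : H12.Nondeg Q) (h5 : 5 ≤ Fintype.card ι) (h2 : (2 : F) ≠ 0)
    (he : Even (Fintype.card ι)) (hn : GeneralLinearGroup.scalar ι (-1 : Fˣ) ∈ Geo.omegaGL Q)
    {g : GL ι F} (hg : g ∈ GO Q) (hg' : g ∉ GOp Q) :
    GOp Q ⊓ cmod g ≤ ZZ (specialIsometryGL F Q) := by
  have : Nonempty ι := Fintype.card_pos_iff.1 (by omega)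
  have hG := H12.good_of_two_ne_zero hQ h2
  rintro h ⟨hh, hh'⟩
  obtain ⟨φ, hφ, hk⟩ := exists_hom_GO_d8 hQ hG h2 he hn
  obtain ⟨c, hc, hc'⟩ := exists_so_notMem hQ hG h2 (by omega)
  have hcG := so_le_GOp h2 hc
  have key : ∀ a b : GO Q, φ a = φ b ↔ a.1 * b.1⁻¹ ∈ ZZ (Geo.omegaGL Q) := fun a b => by
    rw [← mul_inv_eq_one, ← map_inv, ← map_mul, ← MonoidHom.mem_ker, hk]; rfl
  have h1 : ∀ {a : GL ι F}, a ∈ GOp Q → g * a⁻¹ ∉ ZZ (Geo.omegaGL Q) := fun ha h =>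
    hg' ((mul_mem_cancel_right (inv_mem ha)).1 (ZZ_omega_le_GOp he h))
  have := d8_aux (φ ⟨h, GOp_le _ hh⟩) (φ ⟨g, hg⟩) (φ ⟨c, GOp_le _ hcG⟩) ?_ ?_ ?_
  · rw [← map_one φ, ← map_mul] at this
    simp only [key] at this
    rcases this with h | h | h | h | h | h
    · exact ZZ_mono (omega_le_so _) (by simpa using h)
    · exact (mul_mem_cancel_right (inv_mem (le_ZZ _ hc))).1 (ZZ_mono (omega_le_so _) h)
    · exact absurd h (h1 (one_mem _))
    · exact absurd h (h1 hcG)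
    · exact absurd h (h1 hh)
    · exact absurd h (h1 (mul_mem hh hcG))
  · rw [← map_one φ, Ne, key]
    exact fun h => hc' (((negOK_of_mem hn).mem_iff hQ hc).1 (by simpa using h))
  · intro a
    obtain ⟨a, rfl⟩ := hφ a
    rw [← map_mul, ← map_mul, key]
    simpa [gamAut_inl, mul_assoc] using
      gam_mul_inv_mem hQ hG h2 (inl_mem_GamO.2 a.2) (le_ZZ _ hc)
  · rw [← map_mul, ← map_mul, eq_comm, key]
    simpa [mul_assoc] using center_le_ZZ _ (mem_cmod.1 hh')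

theorem GD.cmod_le {g : GL ι F} {μ : Fˣ} (d : GD Q g μ) (hQ : H12.Nondeg Q) [Nonempty ι]
    (h2 : (2 : F) ≠ 0) {m : ℕ} (hm : Fintype.card ι = 2 * m) (hme : Even m) :
    GOp Q ⊓ cmod g ≤ ZZ (specialIsometryGL F Q) := by
  have he : Even (Fintype.card ι) := hm ▸ even_two_mul m
  have hG := H12.good_of_two_ne_zero hQ h2
  rintro h ⟨hh, hh'⟩
  obtain ⟨c, hc⟩ := mem_GO.1 (GOp_le _ hh)
  refine mem_ZZ_so hQ he hh hc ?_
  have hμ : IsSquare (μ : F) := by
    by_contra hμ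
    have h1 := det_of_not_isSquare hm d.sq hμ
    rw [d.det, hme.neg_pow, show Fintype.card ι / 2 = m by omega] at h1
    exact pow_ne_zero m μ.ne_zero ((mul_eq_zero.1 (by linear_combination -h1 :
      2 * (μ : F) ^ m = 0)).resolve_left h2)
  obtain ⟨t, rfl⟩ := exists_units_sq hμ
  obtain ⟨k, hk, hd, h1⟩ := d.exists_invol he
  have h3 := finrank_fixS_neg h2 hk
  have h4 : Odd (finrank F (H12.fixS k)) := by
    have h5 := finrank_fixS_add k
    rw [Module.finrank_fintype_fun_eq_card] at h5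
    rw [← Nat.not_even_iff_odd]
    intro h
    rw [H12.detO_eq_dk hQ hG, H12.dk_apply, ((Nat.even_add.1 (h5 ▸ he)).2 h).neg_one_pow] at hd
    simp only [Units.val_one, Int.cast_one] at hd
    exact h2 (by linear_combination hd)
  obtain ⟨e, he'⟩ := mem_center_iff_smul.1 (mem_cmod.1 hh')
  have h5 : ∀ v, k.1 (h.val *ᵥ v) = e • h.val *ᵥ k.1 v := fun v => by
    refine smul_right_injective _ t.ne_zero ?_
    simp only
    rw [← h1, smul_comm, ← mulVec_smul, ← h1, ← he']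
    simp only [mulVec_mulVec, ← Units.val_mul]
    congr 2; group
  have hkk : ∀ v, k.1 (k.1 v) = v := fun v => by rw [← H12.O.mul_apply, ← pow_two, hk]; rfl
  have h6 : e = 1 ∨ e = -1 := by
    obtain ⟨w, hw⟩ := exists_Q_ne hQ
    have := hkk (h.val *ᵥ w)
    rw [h5, map_smul, h5, hkk, smul_smul] at this
    have h7 := congrArg Q this
    have h8 : h.val *ᵥ w ≠ 0 := H12.ne_zero_of_Q_ne (Q := Q) (by
      rw [hc]; exact mul_ne_zero c.ne_zero hw)
    exact mul_self_eq_one_iff.1 (smul_left_injective F h8 (this.trans (one_smul _ _).symm))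
  rcases h6 with rfl | rfl
  · exact isSquare_of_sim_odd (nondeg_fixS hQ (r := 2) h2 hk) h4
      (b := (toLin' h.val).restrict fun v hv => by
        rw [H12.mem_fixS] at hv ⊢; rw [toLin'_apply, h5, hv, one_smul]) fun w => hc w
  · exfalso
    have h7 : ∀ {U W : Submodule F (ι → F)}, (∀ v ∈ U, toLin' h.val v ∈ W) →
        finrank F U ≤ finrank F W := fun {U W} H =>
      LinearMap.finrank_le_finrank_of_injective (f := (toLin' h.val).restrict H)
        fun a b hab => Subtype.ext (toLin'_inj h (congrArg Subtype.val hab))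
    have h8 := h7 (U := H12.fixS k) (W := H12.fixS (H12.negO Q * k)) fun v hv => by
      change -k.1 _ = _
      rw [toLin'_apply, h5, H12.mem_fixS.1 hv]; simp
    have h9 := h7 (W := H12.fixS k) (U := H12.fixS (H12.negO Q * k)) fun v hv => by
      rw [H12.mem_fixS, toLin'_apply, h5, show k.1 v = -v from neg_eq_iff_eq_neg.1 hv]
      simp [mulVec_neg]
    obtain ⟨i, hi⟩ := h4
    obtain ⟨j, hj⟩ := hme
    omega

theorem split_eq_cmod (hq : NQ q) (h5 : 5 ≤ Fintype.card ι) (he : Even (Fintype.card ι))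
    (g : GO q) : splitClassCount (pomInn q _ (GOp_le q)).range (Inn (POmega F q))
      (pomInn q _ le_rfl g) = (ZZ (Geo.omegaGL q) ⊔ GOp q ⊓ cmod g).relIndex (GOp q) := by
  have hZ : ZZ (Geo.omegaGL q) ≤ GOp q := by
    obtain ⟨Q, rfl, -⟩ := hq
    exact ZZ_omega_le_GOp he
  have key : ∀ h : GOp q, pomInn q _ (GOp_le q) h ∈ centralizer {pomInn q _ le_rfl g} ↔
      h.1 ∈ cmod g := fun h => by
    rw [mem_cent_iff, mem_cmod, ← mul_inv_eq_one, show pomInn q _ (GOp_le q) h =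
      pomInn q _ le_rfl ⟨h.1, GOp_le q h.2⟩ from rfl, ← map_inv, ← map_inv, ← map_mul, ← map_mul,
      ← map_mul, pomInn_eq_one_iff hq h5]
    rfl
  have h1 : (pomInn q _ (GOp_le q)).range ⊓ centralizer {pomInn q _ le_rfl g} =
      ((GOp q ⊓ cmod g).subgroupOf (GOp q)).map (pomInn q _ (GOp_le q)) := by
    refine le_antisymm ?_ ?_
    · rintro _ ⟨⟨h, rfl⟩, hh⟩
      exact ⟨h, ⟨h.2, (key h).1 hh⟩, rfl⟩
    · rintro _ ⟨h, hh, rfl⟩
      exact ⟨⟨h, rfl⟩, (key h).2 hh.2⟩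
  rw [splitClassCount_eq _ _ (by
      rw [inn_pom_eq (GOp_le q) (omega_le_GOp q)]; exact map_le_range _ _), h1,
    inn_eq_map_ZZ (GOp_le q) (omega_le_GOp q), ← Subgroup.map_sup, relIndex_map_range,
    sup_eq_left.2 ((ker_le_ZZ hq h5 _ _).trans le_sup_left), ← subgroupOf_sup hZ inf_le_left]
  rfl

theorem split_graph (hq : NQ q) (h5 : 5 ≤ Fintype.card ι) (h2 : (2 : F) ≠ 0) {m : ℕ}
    (hm : Fintype.card ι = 2 * m) {g : GO q} (hg : g.1 ∉ GOp q)
    (hx : pomInn q _ le_rfl g ^ 2 = 1) {P : Subgroup (MulAut (POmega F q))}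
    (hP : P = (pomInn q _ (GOp_le q)).range) :
    (splitClassCount P (Inn (POmega F q)) (pomInn q _ le_rfl g) = 1 ∨
      splitClassCount P (Inn (POmega F q)) (pomInn q _ le_rfl g) = 2) ∧
    (GeneralLinearGroup.scalar ι (-1 : Fˣ) ∈ Geo.omegaGL q ∨ Even m →
      splitClassCount P (Inn (POmega F q)) (pomInn q _ le_rfl g) = 2) := by
  have : Nonempty ι := Fintype.card_pos_iff.1 (by omega)
  have he : Even (Fintype.card ι) := hm ▸ even_two_mul m
  rw [hP, split_eq_cmod hq h5 he]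
  rw [← map_pow, pomInn_eq_one_iff hq h5] at hx
  obtain ⟨Q, rfl, hQ⟩ := hq
  have hG := H12.good_of_two_ne_zero hQ h2
  obtain ⟨μ, d⟩ := exists_gd hQ h2 he g.2 hg hx
  have h1 : ZZ (specialIsometryGL F Q) ≤ ZZ (Geo.omegaGL Q) ⊔ GOp Q ⊓ cmod g := fun h hh => by
    obtain ⟨c, hc, h3, h4⟩ := exists_mul_inv_mem_omega hQ h2 he (P := fun c => Commute c g.1)
      (Commute.one_left _) (d.exists_so hQ h5 h2 he) hh
    simpa using mul_mem_sup h4 (show c ∈ GOp Q ⊓ cmod g from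
      ⟨so_le_GOp h2 hc, mem_cmod.2 (by rw [← h3.eq]; simp [one_mem])⟩)
  refine ⟨(Nat.dvd_prime Nat.prime_two).1
    (relIndex_so_GOp hQ hG h2 he ▸ relIndex_dvd_of_le_left _ h1), fun h => ?_⟩
  rw [le_antisymm (sup_le (ZZ_mono (omega_le_so _)) (h.elim
    (fun h => cmod_le_of_neg hQ h5 h2 he h g.2 hg) (d.cmod_le hQ h2 hm))) h1]
  exact relIndex_so_GOp hQ hG h2 he

theorem right_eq_one_minus {m : ℕ} (hm : 2 ≤ m) {a b : F} (hab : H66.Aniso a b)
    {s : GamO (quadFormMinus m F a b)} (hx : pomGam _ s ^ 2 = 1) : s.1.right = 1 := by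
  by_contra hs
  have h5 : 5 ≤ Fintype.card ((Fin m ⊕ Fin m) ⊕ Fin 2) := by simp; omega
  have hn : Fintype.card ((Fin m ⊕ Fin m) ⊕ Fin 2) = 2 * (m + 1) := by simp; omega
  have hQ := H12.nondeg_QMinus hab m
  obtain ⟨ht, hz⟩ := order_facts (nq_minus hab m) h5 hs Nat.prime_two hx
  obtain ⟨F₀, _, e, he⟩ := exists_fix_emb s.1.right
  obtain ⟨Ψ₁, d₁⟩ := exists_desc he (by rwa [ht])
  obtain ⟨Q₁, ν₁, h₁⟩ := d₁.exists_qt (Q := H12.QMinus m a b) he
    (mem_GamO_congr (H12.coe_QMinus m a b) s.2) (exists_Q_ne hQ)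
  have := finite_of_emb e
  exact not_isPlusType_QMinus m hab (h₁.plus_of_card_sq hQ hn (card_of_orderOf_two ht he))

end Graph

end H67
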