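import Mathlib

set_option autoImplicit false

namespace H67.Shintani

variable {X : Type*} [Group X]

theorem mem_fix (τ : MulAut X) (x : X) :
    x ∈ (MulEquiv.toMonoidHom τ).eqLocus (MonoidHom.id X) ↔ τ x = x := Iff.rfl

theorem pow_succ_apply (σ : MulAut X) (n : ℕ) (x : X) : (σ ^ (n + 1)) x = (σ ^ n) (σ x) := by
  rw [pow_succ, MulAut.mul_apply]

theorem pow_succ_apply' (σ : MulAut X) (n : ℕ) (x : X) : (σ ^ (n + 1)) x = σ ((σ ^ n) x) := by
  rw [pow_succ', MulAut.mul_apply]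

theorem comm_apply (σ : MulAut X) (n : ℕ) (x : X) : (σ ^ n) (σ x) = σ ((σ ^ n) x) := by
  rw [← pow_succ_apply, pow_succ_apply']

theorem comm_pow_apply (σ : MulAut X) (m n : ℕ) (x : X) :
    (σ ^ m) ((σ ^ n) x) = (σ ^ n) ((σ ^ m) x) := by
  rw [← MulAut.mul_apply, ← MulAut.mul_apply, ← pow_add, ← pow_add, add_comm]

theorem norm_eq (σ : MulAut X) (g a : X) (ha : g = a * (σ a)⁻¹) (d : ℕ) :
    ((List.range d).map (fun i => (σ ^ i) g)).prod = a * ((σ ^ d) a)⁻¹ := by
  induction d with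
  | zero => simp
  | succ d ih =>
    rw [List.range_succ, List.map_append, List.prod_append, ih]
    simp only [List.map_cons, List.map_nil, List.prod_cons, List.prod_nil, mul_one]
    rw [ha, map_mul, map_inv, pow_succ_apply]
    group

/-- the Shintani image is fixed by `σ` -/
theorem image_fixed (σ : MulAut X) (e : ℕ) (g a : X) (hg : (σ ^ e) g = g)
    (ha : g = a * (σ a)⁻¹) : σ (((σ ^ e) a)⁻¹ * a) = ((σ ^ e) a)⁻¹ * a := by
  rw [ha, map_mul, map_inv, comm_apply] at hg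
  rw [map_mul, map_inv]
  calc (σ ((σ ^ e) a))⁻¹ * σ a
      = ((σ ^ e) a)⁻¹ * ((σ ^ e) a * (σ ((σ ^ e) a))⁻¹) * σ a := by group
    _ = ((σ ^ e) a)⁻¹ * a := by rw [hg]; group

theorem pow_fixed (σ : MulAut X) (x : X) (hx : σ x = x) (n : ℕ) : (σ ^ n) x = x := by
  induction n with
  | zero => simp
  | succ n ih => rw [pow_succ_apply, hx, ih]

end H67.Shintani
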